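import Mathlib
import Cfsg.Agent.Lib.Helper92.ESLarge

set_option autoImplicit false

namespace Cfsg.Agent.Lib.Helper92.TSL

open Matrix

variable {n : ℕ}

/-- the centre vector `e₀` -/
def e0 : Fin (n + 2) → ZMod 2 := Pi.single 0 1
/-- the axis functional `e₁` -/
def f1 : Fin (n + 2) → ZMod 2 := Pi.single 1 1

theorem dot_e0 (a : Fin (n + 2) → ZMod 2) : a ⬝ᵥ e0 = a 0 := by
  rw [e0, dotProduct_single, mul_one]

theorem f1_dot (b : Fin (n + 2) → ZMod 2) : f1 ⬝ᵥ b = b 1 := by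
  rw [f1, single_dotProduct, one_mul]

theorem f1_zero : (f1 : Fin (n + 2) → ZMod 2) 0 = 0 := by
  rw [f1]; exact Pi.single_eq_of_ne Fin.zero_ne_one 1

theorem e0_one : (e0 : Fin (n + 2) → ZMod 2) 1 = 0 := by
  rw [e0]; exact Pi.single_eq_of_ne Fin.zero_ne_one.symm 1

theorem e0_zero : (e0 : Fin (n + 2) → ZMod 2) 0 = 1 := by
  rw [e0]; exact Pi.single_eq_same _ _

theorem f1_one : (f1 : Fin (n + 2) → ZMod 2) 1 = 1 := by
  rw [f1]; exact Pi.single_eq_same _ _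

/-- the matrix `1 + e a + b f` -/
def MM (a b : Fin (n + 2) → ZMod 2) : Matrix (Fin (n + 2)) (Fin (n + 2)) (ZMod 2) :=
  1 + vecMulVec e0 a + vecMulVec b f1

theorem MM_mul (a b a' b' : Fin (n + 2) → ZMod 2) (ha : a 0 = 0) (hb' : b' 1 = 0) :
    MM a b * MM a' b' = MM (a + a' + (a ⬝ᵥ b') • f1) (b + b') := by
  unfold MM
  simp only [add_mul, mul_add, one_mul, mul_one, vecMulVec_mul_vecMulVec, dot_e0, f1_dot, ha, hb',
    f1_zero, zero_smul, vecMulVec_zero, add_zero, vecMulVec_add, add_vecMulVec]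
  abel

theorem add_self_vec (a : Fin (n + 2) → ZMod 2) : a + a = 0 := by
  ext k; exact CharTwo.add_self_eq_zero _

theorem MM_zero : MM (0 : Fin (n + 2) → ZMod 2) 0 = 1 := by
  unfold MM; simp

abbrev SLn (n : ℕ) := SpecialLinearGroup (Fin (n + 2)) (ZMod 2)

theorem coe_mul' (g h : SLn n) : ((g * h : SLn n) : Matrix (Fin (n + 2)) (Fin (n + 2)) (ZMod 2))
    = (g : Matrix (Fin (n + 2)) (Fin (n + 2)) (ZMod 2)) * h := rfl

theorem coe_inv_mul (g : SLn n) : ((g⁻¹ : SLn n) : Matrix (Fin (n + 2)) (Fin (n + 2)) (ZMod 2))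
    * (g : Matrix (Fin (n + 2)) (Fin (n + 2)) (ZMod 2)) = 1 :=
  congrArg (fun x : SLn n => (x : Matrix (Fin (n + 2)) (Fin (n + 2)) (ZMod 2))) (inv_mul_cancel g)

theorem coe_mul_inv (g : SLn n) : (g : Matrix (Fin (n + 2)) (Fin (n + 2)) (ZMod 2))
    * ((g⁻¹ : SLn n) : Matrix (Fin (n + 2)) (Fin (n + 2)) (ZMod 2)) = 1 :=
  congrArg (fun x : SLn n => (x : Matrix (Fin (n + 2)) (Fin (n + 2)) (ZMod 2))) (mul_inv_cancel g)

theorem coe_inv_eq {g : SLn n} {M : Matrix (Fin (n + 2)) (Fin (n + 2)) (ZMod 2)}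
    (h : (g : Matrix (Fin (n + 2)) (Fin (n + 2)) (ZMod 2)) * M = 1) :
    ((g⁻¹ : SLn n) : Matrix (Fin (n + 2)) (Fin (n + 2)) (ZMod 2)) = M := by
  calc ((g⁻¹ : SLn n) : Matrix (Fin (n + 2)) (Fin (n + 2)) (ZMod 2))
      = (g⁻¹ : SLn n) * ((g : Matrix (Fin (n + 2)) (Fin (n + 2)) (ZMod 2)) * M) := by
        rw [h, mul_one]
    _ = M := by rw [← mul_assoc, coe_inv_mul, one_mul]

theorem MM_inv (a b : Fin (n + 2) → ZMod 2) (ha : a 0 = 0) (hb : b 1 = 0) :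
    MM a b * MM (a + (a ⬝ᵥ b) • f1) b = 1 := by
  rw [MM_mul a b _ b ha hb, add_self_vec b, ← MM_zero]
  congr 1
  have : a + (a + (a ⬝ᵥ b) • f1) + (a ⬝ᵥ b) • f1 = (a + a) + ((a ⬝ᵥ b) • f1 + (a ⬝ᵥ b) • f1) := by
    abel
  rw [this, add_self_vec, add_self_vec, add_zero]

/-- the extraspecial group `Q₀` -/
def Q0 (n : ℕ) : Subgroup (SLn n) where
  carrier := {g : SLn n | ∃ a b : Fin (n + 2) → ZMod 2, a 0 = 0 ∧ b 1 = 0 ∧
    (g : Matrix (Fin (n + 2)) (Fin (n + 2)) (ZMod 2)) = MM a b}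
  one_mem' := ⟨0, 0, rfl, rfl, MM_zero.symm⟩
  mul_mem' := by
    rintro g h ⟨a, b, ha, hb, hg⟩ ⟨a', b', ha', hb', hh⟩
    refine ⟨a + a' + (a ⬝ᵥ b') • f1, b + b', by simp [ha, ha', f1_zero], by simp [hb, hb'], ?_⟩
    rw [coe_mul', hg, hh, MM_mul a b a' b' ha hb']
  inv_mem' := by
    rintro g ⟨a, b, ha, hb, hg⟩
    refine ⟨a + (a ⬝ᵥ b) • f1, b, by simp [ha, f1_zero], hb, ?_⟩
    apply coe_inv_eq
    rw [hg, MM_inv a b ha hb]

theorem mem_Q0 {g : SLn n} : g ∈ Q0 n ↔ ∃ a b : Fin (n + 2) → ZMod 2, a 0 = 0 ∧ b 1 = 0 ∧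
    (g : Matrix (Fin (n + 2)) (Fin (n + 2)) (ZMod 2)) = MM a b := Iff.rfl

theorem transv_eq_MM : (transvection 0 1 1 : Matrix (Fin (n + 2)) (Fin (n + 2)) (ZMod 2))
    = MM f1 0 := by
  rw [transvection, single_eq_single_vecMulVec_single, MM, zero_vecMulVec, add_zero]; rfl

theorem zmod2_cases (x : ZMod 2) : x = 0 ∨ x = 1 := by
  revert x; decide

/-- elements commuting with `z` fix `e₀` and `f₁` -/
theorem fix_of_commute {z c : SLn n}
    (hz : (z : Matrix (Fin (n + 2)) (Fin (n + 2)) (ZMod 2)) = MM f1 0) (hc : Commute c z) :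
    (c : Matrix (Fin (n + 2)) (Fin (n + 2)) (ZMod 2)) *ᵥ e0 = e0 ∧
      f1 ᵥ* (c : Matrix (Fin (n + 2)) (Fin (n + 2)) (ZMod 2)) = f1 := by
  have h3 : (c : Matrix (Fin (n + 2)) (Fin (n + 2)) (ZMod 2)) * z
      = (z : Matrix (Fin (n + 2)) (Fin (n + 2)) (ZMod 2)) * c :=
    congrArg (fun x : SLn n => (x : Matrix (Fin (n + 2)) (Fin (n + 2)) (ZMod 2))) hc.eq
  rw [hz, MM, zero_vecMulVec, add_zero, add_mul, mul_add, one_mul, mul_one, add_right_inj,
    vecMulVec_mul, mul_vecMulVec] at h3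
  have h4 : ∀ k, ((c : Matrix (Fin (n + 2)) (Fin (n + 2)) (ZMod 2)) *ᵥ e0) k
      = e0 k * (f1 ᵥ* (c : Matrix (Fin (n + 2)) (Fin (n + 2)) (ZMod 2))) 1 := by
    intro k
    have := congrFun (congrFun h3 k) 1
    simpa only [vecMulVec_apply, f1_one, mul_one] using this
  have h5 : ∀ l, ((c : Matrix (Fin (n + 2)) (Fin (n + 2)) (ZMod 2)) *ᵥ e0) 0 * f1 l
      = (f1 ᵥ* (c : Matrix (Fin (n + 2)) (Fin (n + 2)) (ZMod 2))) l := by
    intro l
    have := congrFun (congrFun h3 0) l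
    simpa only [vecMulVec_apply, e0_zero, one_mul] using this
  rcases zmod2_cases ((f1 ᵥ* (c : Matrix (Fin (n + 2)) (Fin (n + 2)) (ZMod 2))) 1) with h6 | h6
  · exfalso
    have h7 : (c : Matrix (Fin (n + 2)) (Fin (n + 2)) (ZMod 2)) *ᵥ e0 = 0 := by
      ext k; rw [h4, h6, mul_zero]; rfl
    have h8 : (e0 : Fin (n + 2) → ZMod 2) = 0 := by
      calc (e0 : Fin (n + 2) → ZMod 2)
          = (1 : Matrix (Fin (n + 2)) (Fin (n + 2)) (ZMod 2)) *ᵥ e0 := by rw [one_mulVec]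
        _ = 0 := by rw [← coe_inv_mul c, ← mulVec_mulVec, h7, mulVec_zero]
    have := congrFun h8 0
    rw [e0_zero] at this
    exact one_ne_zero this
  · have h7 : (c : Matrix (Fin (n + 2)) (Fin (n + 2)) (ZMod 2)) *ᵥ e0 = e0 := by
      ext k; rw [h4, h6, mul_one]
    refine ⟨h7, ?_⟩
    ext l
    rw [← h5, h7, e0_zero, one_mul]

theorem commute_of_fix {z c : SLn n}
    (hz : (z : Matrix (Fin (n + 2)) (Fin (n + 2)) (ZMod 2)) = MM f1 0)
    (h1 : (c : Matrix (Fin (n + 2)) (Fin (n + 2)) (ZMod 2)) *ᵥ e0 = e0)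
    (h2 : f1 ᵥ* (c : Matrix (Fin (n + 2)) (Fin (n + 2)) (ZMod 2)) = f1) : Commute c z := by
  apply Subtype.ext
  change (c : Matrix (Fin (n + 2)) (Fin (n + 2)) (ZMod 2)) * z
      = (z : Matrix (Fin (n + 2)) (Fin (n + 2)) (ZMod 2)) * c
  rw [hz, MM, zero_vecMulVec, add_zero, add_mul, mul_add, one_mul, mul_one,
    vecMulVec_mul, mul_vecMulVec, h1, h2]

theorem MM_apply (a b : Fin (n + 2) → ZMod 2) (i j : Fin (n + 2)) :
    MM a b i j = (1 : Matrix (Fin (n + 2)) (Fin (n + 2)) (ZMod 2)) i j + e0 i * a j + b i * f1 j := by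
  simp [MM, vecMulVec_apply]

theorem Q0_mul_cases {z g h : SLn n}
    (hz : (z : Matrix (Fin (n + 2)) (Fin (n + 2)) (ZMod 2)) = MM f1 0)
    (hg : g ∈ Q0 n) (hh : h ∈ Q0 n) : g * h = h * g ∨ g * h = h * g * z := by
  obtain ⟨a, b, ha, hb, hg⟩ := hg
  obtain ⟨a', b', ha', hb', hh⟩ := hh
  have e1 : ((g * h : SLn n) : Matrix (Fin (n + 2)) (Fin (n + 2)) (ZMod 2))
      = MM (a + a' + (a ⬝ᵥ b') • f1) (b + b') := by
    rw [coe_mul', hg, hh, MM_mul a b a' b' ha hb']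
  have e2 : ((h * g : SLn n) : Matrix (Fin (n + 2)) (Fin (n + 2)) (ZMod 2))
      = MM (a' + a + (a' ⬝ᵥ b) • f1) (b' + b) := by
    rw [coe_mul', hg, hh, MM_mul a' b' a b ha' hb]
  have e3 : ((h * g * z : SLn n) : Matrix (Fin (n + 2)) (Fin (n + 2)) (ZMod 2))
      = MM (a' + a + (a' ⬝ᵥ b) • f1 + f1) (b' + b) := by
    rw [coe_mul', e2, hz, MM_mul _ _ _ _ (by simp [ha, ha', f1_zero]) rfl]
    simp
  rcases zmod2_cases (a ⬝ᵥ b') with h1 | h1 <;> rcases zmod2_cases (a' ⬝ᵥ b) with h2 | h2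
  · left
    apply Subtype.ext
    rw [e1, e2, h1, h2, add_comm a a', add_comm b b']
  · right
    apply Subtype.ext
    rw [e1, e3, h1, h2, add_comm a a', add_comm b b', zero_smul, one_smul, add_assoc (a' + a),
      add_self_vec]
  · right
    apply Subtype.ext
    rw [e1, e3, h1, h2, add_comm a a', add_comm b b', zero_smul, one_smul, add_zero]
  · left
    apply Subtype.ext
    rw [e1, e2, h1, h2, add_comm a a', add_comm b b']

theorem vecMul_zero_eq (v : Fin (n + 2) → ZMod 2)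
    (M : Matrix (Fin (n + 2)) (Fin (n + 2)) (ZMod 2)) : (v ᵥ* M) 0 = v ⬝ᵥ (M *ᵥ e0) := by
  rw [dotProduct_mulVec, dot_e0]

theorem mulVec_one_eq (v : Fin (n + 2) → ZMod 2)
    (M : Matrix (Fin (n + 2)) (Fin (n + 2)) (ZMod 2)) : (M *ᵥ v) 1 = (f1 ᵥ* M) ⬝ᵥ v := by
  rw [← dotProduct_mulVec, f1_dot]

theorem Q0_zc {z g : SLn n}
    (hz : (z : Matrix (Fin (n + 2)) (Fin (n + 2)) (ZMod 2)) = MM f1 0)
    (hg : g ∈ Q0 n) : Commute g z := by
  obtain ⟨a, b, ha, hb, hg⟩ := hg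
  apply Subtype.ext
  change (g : Matrix (Fin (n + 2)) (Fin (n + 2)) (ZMod 2)) * z
      = (z : Matrix (Fin (n + 2)) (Fin (n + 2)) (ZMod 2)) * g
  rw [hz, hg, MM_mul _ _ _ _ ha rfl, MM_mul _ _ _ _ f1_zero hb, f1_dot, hb]
  simp [add_comm]

theorem Q0_norm {z c g : SLn n}
    (hz : (z : Matrix (Fin (n + 2)) (Fin (n + 2)) (ZMod 2)) = MM f1 0) (hc : Commute c z)
    (hg : g ∈ Q0 n) : c * g * c⁻¹ ∈ Q0 n := by
  obtain ⟨a, b, ha, hb, hg⟩ := hg
  obtain ⟨c1, c2⟩ := fix_of_commute hz hc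
  obtain ⟨d1, d2⟩ := fix_of_commute hz hc.inv_left
  refine ⟨a ᵥ* ((c⁻¹ : SLn n) : Matrix (Fin (n + 2)) (Fin (n + 2)) (ZMod 2)),
    (c : Matrix (Fin (n + 2)) (Fin (n + 2)) (ZMod 2)) *ᵥ b, ?_, ?_, ?_⟩
  · rw [vecMul_zero_eq, d1, dot_e0, ha]
  · rw [mulVec_one_eq, c2, f1_dot, hb]
  · rw [coe_mul', coe_mul', hg, MM, MM, mul_add, mul_add, mul_one, add_mul, add_mul, coe_mul_inv,
      mul_vecMulVec, mul_vecMulVec, vecMulVec_mul, vecMulVec_mul, c1, d2]

theorem Q0_sq {g : SLn n} (hg : g ∈ Q0 n) : ∃ l : ZMod 2,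
    ((g * g : SLn n) : Matrix (Fin (n + 2)) (Fin (n + 2)) (ZMod 2)) = MM (l • f1) 0 := by
  obtain ⟨a, b, ha, hb, hg⟩ := hg
  refine ⟨a ⬝ᵥ b, ?_⟩
  rw [coe_mul', hg, MM_mul a b a b ha hb, add_self_vec, add_self_vec, zero_add]

theorem Q0_two : IsPGroup 2 ↥(Q0 n) := by
  intro g
  refine ⟨2, ?_⟩
  obtain ⟨l, hl⟩ := Q0_sq g.2
  apply Subtype.ext
  apply Subtype.ext
  have e : (g : SLn n) ^ 2 ^ 2 = ((g : SLn n) * g) * ((g : SLn n) * g) := by
    norm_num [pow_succ, mul_assoc]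
  change (((g : SLn n) ^ 2 ^ 2 : SLn n) : Matrix (Fin (n + 2)) (Fin (n + 2)) (ZMod 2)) = 1
  rw [e, coe_mul', hl, MM_mul _ _ _ _ (by simp [f1_zero]) rfl, add_self_vec, add_self_vec]
  simp [MM_zero]

/-- row transvections -/
def Trow (l : Fin (n + 2)) (hl : l ≠ 0) : SLn n :=
  ⟨transvection 0 l 1, det_transvection_of_ne 0 l hl.symm 1⟩

theorem Trow_coe (l : Fin (n + 2)) (hl : l ≠ 0) :
    (Trow l hl : Matrix (Fin (n + 2)) (Fin (n + 2)) (ZMod 2)) = MM (Pi.single l 1) 0 := by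
  change transvection 0 l 1 = _
  rw [transvection, single_eq_single_vecMulVec_single, MM, zero_vecMulVec, add_zero]; rfl

theorem Trow_mem (l : Fin (n + 2)) (hl : l ≠ 0) : Trow l hl ∈ Q0 n :=
  ⟨Pi.single l 1, 0, Pi.single_eq_of_ne hl.symm 1, rfl, Trow_coe l hl⟩

/-- column transvections -/
def Tcol (k : Fin (n + 2)) (hk : k ≠ 1) : SLn n :=
  ⟨transvection k 1 1, det_transvection_of_ne k 1 hk 1⟩

theorem Tcol_coe (k : Fin (n + 2)) (hk : k ≠ 1) :
    (Tcol k hk : Matrix (Fin (n + 2)) (Fin (n + 2)) (ZMod 2)) = MM 0 (Pi.single k 1) := by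
  change transvection k 1 1 = _
  rw [transvection, single_eq_single_vecMulVec_single, MM, vecMulVec_zero, add_zero]; rfl

theorem Tcol_mem (k : Fin (n + 2)) (hk : k ≠ 1) : Tcol k hk ∈ Q0 n :=
  ⟨0, Pi.single k 1, rfl, Pi.single_eq_of_ne hk.symm 1, Tcol_coe k hk⟩

theorem Q0_cent {z c : SLn n}
    (hz : (z : Matrix (Fin (n + 2)) (Fin (n + 2)) (ZMod 2)) = MM f1 0)
    (hc : ∀ a ∈ Q0 n, Commute a c) : c = 1 ∨ c = z := by
  have hzQ : z ∈ Q0 n := ⟨f1, 0, f1_zero, rfl, hz⟩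
  obtain ⟨c1, c2⟩ := fix_of_commute hz (hc z hzQ).symm
  have hrow : ∀ l, l ≠ 0 → ∀ m, (c : Matrix (Fin (n + 2)) (Fin (n + 2)) (ZMod 2)) l m
      = (Pi.single l 1 : Fin (n + 2) → ZMod 2) m := by
    intro l hl m
    have h3 : (Trow l hl : Matrix (Fin (n + 2)) (Fin (n + 2)) (ZMod 2)) * c
        = (c : Matrix (Fin (n + 2)) (Fin (n + 2)) (ZMod 2)) * Trow l hl :=
      congrArg (fun x : SLn n => (x : Matrix (Fin (n + 2)) (Fin (n + 2)) (ZMod 2)))
        (hc _ (Trow_mem l hl)).eq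
    rw [Trow_coe, MM, zero_vecMulVec, add_zero, add_mul, mul_add, one_mul, mul_one, add_right_inj,
      vecMulVec_mul, mul_vecMulVec, c1] at h3
    have := congrFun (congrFun h3 0) m
    simp only [vecMulVec_apply, e0_zero, one_mul] at this
    rw [← this]
    simp [vecMul, dotProduct, Pi.single_apply]
  have h00 : (c : Matrix (Fin (n + 2)) (Fin (n + 2)) (ZMod 2)) 0 0 = 1 := by
    have := congrFun c1 0
    rw [e0_zero] at this
    have e : ((c : Matrix (Fin (n + 2)) (Fin (n + 2)) (ZMod 2)) *ᵥ e0) 0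
        = (c : Matrix (Fin (n + 2)) (Fin (n + 2)) (ZMod 2)) 0 0 := by rw [e0]; simp
    exact e.symm.trans this
  have hcM : (c : Matrix (Fin (n + 2)) (Fin (n + 2)) (ZMod 2))
      = MM (fun m => (c : Matrix (Fin (n + 2)) (Fin (n + 2)) (ZMod 2)) 0 m + e0 m) 0 := by
    ext k m
    rw [MM_apply]
    by_cases hk : k = 0
    · subst hk
      have : (1 : Matrix (Fin (n + 2)) (Fin (n + 2)) (ZMod 2)) 0 m = e0 m := by
        rw [e0, Matrix.one_apply, Pi.single_apply]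
        simp [eq_comm]
      rw [this, e0_zero]
      simp only [Pi.zero_apply, zero_mul, add_zero, one_mul]
      generalize (c : Matrix (Fin (n + 2)) (Fin (n + 2)) (ZMod 2)) 0 m = x
      generalize (e0 : Fin (n + 2) → ZMod 2) m = y
      revert x y
      decide
    · rw [hrow k hk m]
      have : (e0 : Fin (n + 2) → ZMod 2) k = 0 := by rw [e0]; exact Pi.single_eq_of_ne hk 1
      rw [this, Matrix.one_apply, Pi.single_apply]
      simp [eq_comm]
  set a₀ : Fin (n + 2) → ZMod 2 :=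
    fun m => (c : Matrix (Fin (n + 2)) (Fin (n + 2)) (ZMod 2)) 0 m + e0 m with ha₀
  have ha00 : a₀ 0 = 0 := by
    simp only [ha₀, h00, e0_zero]; decide
  have hak : ∀ k, k ≠ 1 → a₀ k = 0 := by
    intro k hk
    have h3 : (Tcol k hk : Matrix (Fin (n + 2)) (Fin (n + 2)) (ZMod 2)) * c
        = (c : Matrix (Fin (n + 2)) (Fin (n + 2)) (ZMod 2)) * Tcol k hk :=
      congrArg (fun x : SLn n => (x : Matrix (Fin (n + 2)) (Fin (n + 2)) (ZMod 2)))
        (hc _ (Tcol_mem k hk)).eq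
    rw [Tcol_coe, hcM, MM_mul _ _ _ _ rfl rfl, MM_mul _ _ _ _ ha00 (Pi.single_eq_of_ne hk.symm 1)] at h3
    have := congrFun (congrFun h3 0) 1
    simp only [MM_apply, e0_zero, f1_one, one_mul, mul_one, Pi.add_apply,
      Pi.smul_apply, smul_eq_mul, zero_add, add_zero, zero_dotProduct,
      dotProduct_single] at this
    have h5 : a₀ 1 = a₀ 1 + a₀ k := by
      have h6 := add_right_cancel this
      exact add_left_cancel h6
    have h7 : a₀ 1 + 0 = a₀ 1 + a₀ k := by rw [add_zero]; exact h5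
    exact (add_left_cancel h7).symm
  rcases zmod2_cases (a₀ 1) with h1 | h1
  · left
    apply Subtype.ext
    rw [hcM]
    have : a₀ = 0 := by
      ext k
      by_cases hk : k = 1
      · rw [hk, h1]; rfl
      · rw [hak k hk]; rfl
    rw [this, MM_zero]; rfl
  · right
    apply Subtype.ext
    rw [hcM, hz]
    have : a₀ = f1 := by
      ext k
      by_cases hk : k = 1
      · rw [hk, h1, f1_one]
      · rw [hak k hk, f1, Pi.single_apply, if_neg hk]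
    rw [this]

theorem esdata {z : SLn n}
    (hz : (z : Matrix (Fin (n + 2)) (Fin (n + 2)) (ZMod 2)) = MM f1 0) : ESData (Q0 n) z where
  zQ := ⟨f1, 0, f1_zero, rfl, hz⟩
  z1 := by
    intro h
    have := congrArg (fun x : SLn n => (x : Matrix (Fin (n + 2)) (Fin (n + 2)) (ZMod 2)) 0 1) h
    simp only [hz, MM_apply, e0_zero, f1_one] at this
    simp at this
  zz := by
    apply Subtype.ext
    rw [coe_mul', hz, MM_mul _ _ _ _ f1_zero rfl, add_self_vec]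
    simp [MM_zero]
  zc := fun a ha => Q0_zc hz ha
  comm := by
    intro a ha b hb
    rcases Q0_mul_cases hz ha hb with h | h
    · left; rw [h]; group
    · right
      have hc : Commute (b * a) z := Q0_zc hz ((Q0 n).mul_mem hb ha)
      rw [h, hc.eq]; group
  cent := fun c hc => Q0_cent hz hc
  norm := fun c hc a ha => Q0_norm hz hc ha
  two := Q0_two

theorem det_eq_one_of_mul {m : ℕ} {M M' : Matrix (Fin m) (Fin m) (ZMod 2)} (h : M * M' = 1) :
    M.det = 1 := by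
  have h := congrArg Matrix.det h
  rw [det_mul, det_one] at h
  rcases zmod2_cases M.det with h0 | h1
  · rw [h0, zero_mul] at h; exact absurd h zero_ne_one
  · exact h1

/-- the element of `SL` with matrix `MM a b` -/
def mk (a b : Fin (n + 2) → ZMod 2) (ha : a 0 = 0) (hb : b 1 = 0) : SLn n :=
  ⟨MM a b, det_eq_one_of_mul (MM_inv a b ha hb)⟩

theorem mk_mem (a b : Fin (n + 2) → ZMod 2) (ha : a 0 = 0) (hb : b 1 = 0) : mk a b ha hb ∈ Q0 n :=
  ⟨a, b, ha, hb, rfl⟩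

theorem MM_normalize (a b : Fin (n + 2) → ZMod 2) :
    MM a b = MM (a + b 0 • f1) (b + b 0 • e0) := by
  unfold MM
  rw [vecMulVec_add, add_vecMulVec, vecMulVec_smul, smul_vecMulVec]
  have : b 0 • vecMulVec (e0 : Fin (n + 2) → ZMod 2) (f1 : Fin (n + 2) → ZMod 2)
      + b 0 • vecMulVec (e0 : Fin (n + 2) → ZMod 2) (f1 : Fin (n + 2) → ZMod 2) = 0 := by
    ext i j
    exact CharTwo.add_self_eq_zero
      ((b 0 • vecMulVec (e0 : Fin (n + 2) → ZMod 2) (f1 : Fin (n + 2) → ZMod 2)) i j)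
  calc 1 + vecMulVec e0 a + vecMulVec b f1
      = 1 + vecMulVec e0 a + vecMulVec b f1 + (b 0 • vecMulVec (e0 : Fin (n + 2) → ZMod 2) f1
        + b 0 • vecMulVec (e0 : Fin (n + 2) → ZMod 2) f1) := by rw [this, add_zero]
    _ = _ := by abel

/-- parametrisation of `Q₀` -/
def Phi (w : (Fin (n + 1) → ZMod 2) × (Fin n → ZMod 2)) : Q0 n :=
  ⟨mk (Fin.cons 0 w.1) (Fin.cons 0 (Fin.cons 0 w.2)) rfl rfl, mk_mem _ _ _ _⟩

theorem Phi_bijective : Function.Bijective (Phi (n := n)) := by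
  constructor
  · rintro ⟨a, b⟩ ⟨a', b'⟩ h
    have h1 : MM (Fin.cons 0 a) (Fin.cons 0 (Fin.cons 0 b))
        = MM (Fin.cons 0 a' : Fin (n + 2) → ZMod 2) (Fin.cons 0 (Fin.cons 0 b')) :=
      congrArg (fun x : Q0 n => ((x : SLn n) : Matrix (Fin (n + 2)) (Fin (n + 2)) (ZMod 2))) h
    have ha : a = a' := by
      ext j
      have := congrFun (congrFun h1 0) j.succ
      simpa [MM_apply, e0_zero] using this
    have hb : b = b' := by
      ext i
      have := congrFun (congrFun h1 i.succ.succ) 1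
      have e : (e0 : Fin (n + 2) → ZMod 2) i.succ.succ = 0 := by
        rw [e0]; exact Pi.single_eq_of_ne (Fin.succ_ne_zero _) 1
      simpa [MM_apply, e, f1_one] using this
    rw [ha, hb]
  · rintro ⟨g, a, b, ha, hb, hg⟩
    refine ⟨(Fin.tail (a + b 0 • f1), Fin.tail (Fin.tail (b + b 0 • e0))), ?_⟩
    apply Subtype.ext
    apply Subtype.ext
    change MM _ _ = _
    rw [hg, MM_normalize a b]
    congr 1
    · have h0 : (a + b 0 • f1 : Fin (n + 2) → ZMod 2) 0 = 0 := by simp [ha, f1_zero]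
      conv_rhs => rw [← Fin.cons_self_tail (a + b 0 • f1), h0]
    · have h0 : (b + b 0 • e0 : Fin (n + 2) → ZMod 2) 0 = 0 := by
        simp only [Pi.add_apply, Pi.smul_apply, e0_zero, smul_eq_mul, mul_one]
        exact CharTwo.add_self_eq_zero _
      have h1 : Fin.tail (b + b 0 • e0) 0 = 0 := by
        change (b + b 0 • e0 : Fin (n + 2) → ZMod 2) 1 = 0
        simp [hb, e0_one]
      conv_rhs => rw [← Fin.cons_self_tail (b + b 0 • e0), h0,
        ← Fin.cons_self_tail (Fin.tail (b + b 0 • e0)), h1]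

theorem card_Q0 : Nat.card (Q0 n) = 2 ^ (2 * n + 1) := by
  rw [← Nat.card_congr (Equiv.ofBijective _ (Phi_bijective (n := n))), Nat.card_prod,
    Nat.card_fun, Nat.card_fun]
  simp only [Nat.card_eq_fintype_card, Fintype.card_fin, ZMod.card]
  rw [← pow_add]
  congr 1
  omega

/-- the elementary abelian subgroup of row transvections -/
def E0 (n : ℕ) : Subgroup (SLn n) where
  carrier := {g : SLn n | ∃ a : Fin (n + 2) → ZMod 2, a 0 = 0 ∧
    (g : Matrix (Fin (n + 2)) (Fin (n + 2)) (ZMod 2)) = MM a 0}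
  one_mem' := ⟨0, rfl, MM_zero.symm⟩
  mul_mem' := by
    rintro g h ⟨a, ha, hg⟩ ⟨a', ha', hh⟩
    refine ⟨a + a', by simp [ha, ha'], ?_⟩
    rw [coe_mul', hg, hh, MM_mul a 0 a' 0 ha rfl]
    simp
  inv_mem' := by
    rintro g ⟨a, ha, hg⟩
    refine ⟨a, ha, ?_⟩
    apply coe_inv_eq
    rw [hg, MM_mul a 0 a 0 ha rfl, add_self_vec]
    simp [MM_zero]

theorem E0_le : E0 n ≤ Q0 n := by
  rintro g ⟨a, ha, hg⟩
  exact ⟨a, 0, ha, rfl, hg⟩

theorem E0_elem : Cfsg.IsElementaryAbelian 2 (E0 n) := by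
  constructor
  · refine ⟨⟨?_⟩⟩
    rintro ⟨g, a, ha, hg⟩ ⟨h, a', ha', hh⟩
    apply Subtype.ext
    apply Subtype.ext
    change (g : Matrix (Fin (n + 2)) (Fin (n + 2)) (ZMod 2)) * h
      = (h : Matrix (Fin (n + 2)) (Fin (n + 2)) (ZMod 2)) * g
    rw [hg, hh, MM_mul a 0 a' 0 ha rfl, MM_mul a' 0 a 0 ha' rfl, add_comm a a']
    simp
  · rintro g ⟨a, ha, hg⟩
    apply Subtype.ext
    rw [pow_two, coe_mul', hg, MM_mul a 0 a 0 ha rfl, add_self_vec]
    simp [MM_zero]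

def Psi (a : Fin (n + 1) → ZMod 2) : E0 n :=
  ⟨mk (Fin.cons 0 a) 0 rfl rfl, Fin.cons 0 a, rfl, rfl⟩

theorem Psi_bijective : Function.Bijective (Psi (n := n)) := by
  constructor
  · intro a a' h
    have h1 : MM (Fin.cons 0 a) 0 = MM (Fin.cons 0 a' : Fin (n + 2) → ZMod 2) 0 :=
      congrArg (fun x : E0 n => ((x : SLn n) : Matrix (Fin (n + 2)) (Fin (n + 2)) (ZMod 2))) h
    ext j
    have := congrFun (congrFun h1 0) j.succ
    simpa [MM_apply, e0_zero] using this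
  · rintro ⟨g, a, ha, hg⟩
    refine ⟨Fin.tail a, ?_⟩
    apply Subtype.ext
    apply Subtype.ext
    change MM _ _ = _
    rw [hg]
    congr 1
    conv_rhs => rw [← Fin.cons_self_tail a, ha]

theorem card_E0 : Nat.card (E0 n) = 2 ^ (n + 1) := by
  rw [← Nat.card_congr (Equiv.ofBijective _ (Psi_bijective (n := n))), Nat.card_fun]
  simp only [Nat.card_eq_fintype_card, Fintype.card_fin, ZMod.card]

end Cfsg.Agent.Lib.Helper92.TSL
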