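import Mathlib
import Cfsg.Agent.Lib.Helper92.TransvSL

set_option autoImplicit false

namespace Cfsg.Agent.Lib.Helper92.TSL

open Matrix

/-- border a matrix with an identity row and column -/
def bord {m : ℕ} (B : Matrix (Fin m) (Fin m) (ZMod 2)) : Matrix (Fin (m + 1)) (Fin (m + 1)) (ZMod 2) :=
  Matrix.of fun i j =>
    Fin.cases (Fin.cases 1 (fun _ => 0) j) (fun i' => Fin.cases 0 (fun j' => B i' j') j) i

section bord
variable {m : ℕ} (B : Matrix (Fin m) (Fin m) (ZMod 2))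

@[simp] theorem bord_zero_zero : bord B 0 0 = 1 := rfl
@[simp] theorem bord_zero_succ (j : Fin m) : bord B 0 j.succ = 0 := rfl
@[simp] theorem bord_succ_zero (i : Fin m) : bord B i.succ 0 = 0 := rfl
@[simp] theorem bord_succ_succ (i j : Fin m) : bord B i.succ j.succ = B i j := rfl

theorem bord_mul (A B : Matrix (Fin m) (Fin m) (ZMod 2)) : bord (A * B) = bord A * bord B := by
  ext i j
  refine Fin.cases ?_ (fun i' => ?_) i <;> refine Fin.cases ?_ (fun j' => ?_) j <;>
    simp [Matrix.mul_apply, Fin.sum_univ_succ]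

theorem bord_one : bord (1 : Matrix (Fin m) (Fin m) (ZMod 2)) = 1 := by
  ext i j
  refine Fin.cases ?_ (fun i' => ?_) i <;> refine Fin.cases ?_ (fun j' => ?_) j <;>
    simp [Matrix.one_apply, Fin.succ_ne_zero, (Fin.succ_ne_zero _).symm]

end bord

variable {n : ℕ}

abbrev SLs (n : ℕ) := SpecialLinearGroup (Fin n) (ZMod 2)

theorem coe_mul_inv_s (g : SLs n) : (g : Matrix (Fin n) (Fin n) (ZMod 2))
    * ((g⁻¹ : SLs n) : Matrix (Fin n) (Fin n) (ZMod 2)) = 1 :=
  congrArg (fun x : SLs n => (x : Matrix (Fin n) (Fin n) (ZMod 2))) (mul_inv_cancel g)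

/-- the block embedding -/
def kap : SLs n →* SLn n where
  toFun A := ⟨bord (bord (A : Matrix (Fin n) (Fin n) (ZMod 2))),
    det_eq_one_of_mul (M' := bord (bord ((A⁻¹ : SLs n) : Matrix (Fin n) (Fin n) (ZMod 2)))) (by
      rw [← bord_mul, ← bord_mul, coe_mul_inv_s, bord_one, bord_one])⟩
  map_one' := by
    apply Subtype.ext
    change bord (bord (1 : Matrix (Fin n) (Fin n) (ZMod 2))) = 1
    rw [bord_one, bord_one]
  map_mul' A B := by
    apply Subtype.ext
    change bord (bord ((A : Matrix (Fin n) (Fin n) (ZMod 2)) * (B : Matrix (Fin n) (Fin n) (ZMod 2))))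
      = bord (bord _) * bord (bord _)
    rw [bord_mul, bord_mul]

theorem kap_coe (A : SLs n) : (kap A : Matrix (Fin (n + 2)) (Fin (n + 2)) (ZMod 2))
    = bord (bord (A : Matrix (Fin n) (Fin n) (ZMod 2))) := rfl

/-- the lower right block -/
def blk (M : Matrix (Fin (n + 2)) (Fin (n + 2)) (ZMod 2)) : Matrix (Fin n) (Fin n) (ZMod 2) :=
  Matrix.of fun i j => M i.succ.succ j.succ.succ

theorem blk_apply (M : Matrix (Fin (n + 2)) (Fin (n + 2)) (ZMod 2)) (i j : Fin n) :
    blk M i j = M i.succ.succ j.succ.succ := rfl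

theorem blk_bord (A : Matrix (Fin n) (Fin n) (ZMod 2)) : blk (bord (bord A)) = A := rfl

theorem blk_one : blk (1 : Matrix (Fin (n + 2)) (Fin (n + 2)) (ZMod 2)) = 1 := by
  ext i j
  simp [blk_apply, Matrix.one_apply]

theorem blk_mul (M M' : Matrix (Fin (n + 2)) (Fin (n + 2)) (ZMod 2))
    (h : ∀ i : Fin n, M i.succ.succ 0 = 0) (h' : ∀ j : Fin n, M' 1 j.succ.succ = 0) :
    blk (M * M') = blk M * blk M' := by
  ext i j
  rw [blk_apply, Matrix.mul_apply, Matrix.mul_apply, Fin.sum_univ_succ, Fin.sum_univ_succ, h,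
    Fin.succ_zero_eq_one, h']
  simp [blk_apply]

theorem blk_MM (a b : Fin (n + 2) → ZMod 2) : blk (MM a b) = 1 := by
  ext i j
  have e : (e0 : Fin (n + 2) → ZMod 2) i.succ.succ = 0 := by
    rw [e0]; exact Pi.single_eq_of_ne (Fin.succ_ne_zero _) 1
  have f : (f1 : Fin (n + 2) → ZMod 2) j.succ.succ = 0 := by
    rw [f1]
    apply Pi.single_eq_of_ne
    rw [← Fin.succ_zero_eq_one]
    intro h
    exact Fin.succ_ne_zero _ (Fin.succ_injective _ h)
  rw [blk_apply, MM_apply, e, f]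
  simp [Matrix.one_apply]

theorem col_zero {M : Matrix (Fin (n + 2)) (Fin (n + 2)) (ZMod 2)} (h : M *ᵥ e0 = e0)
    (k : Fin (n + 2)) : M k 0 = e0 k := by
  rw [← h, e0]; simp

theorem row_one {M : Matrix (Fin (n + 2)) (Fin (n + 2)) (ZMod 2)} (h : f1 ᵥ* M = f1)
    (l : Fin (n + 2)) : M 1 l = f1 l := by
  rw [← h, f1]; simp

theorem e0_succ (k : Fin (n + 1)) : (e0 : Fin (n + 2) → ZMod 2) k.succ = 0 := by
  rw [e0]; exact Pi.single_eq_of_ne (Fin.succ_ne_zero _) 1

theorem f1_succ_succ (j : Fin n) : (f1 : Fin (n + 2) → ZMod 2) j.succ.succ = 0 := by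
  rw [f1]
  apply Pi.single_eq_of_ne
  rw [← Fin.succ_zero_eq_one]
  intro h
  exact Fin.succ_ne_zero _ (Fin.succ_injective _ h)

theorem one_zero_eq (m : Fin (n + 2)) :
    (1 : Matrix (Fin (n + 2)) (Fin (n + 2)) (ZMod 2)) 0 m = e0 m := by
  rw [e0, Matrix.one_apply, Pi.single_apply]
  simp [eq_comm]

theorem one_one_eq (m : Fin (n + 2)) :
    (1 : Matrix (Fin (n + 2)) (Fin (n + 2)) (ZMod 2)) 1 m = f1 m := by
  rw [f1, Matrix.one_apply, Pi.single_apply]
  simp [eq_comm]

theorem MM_of_blk (M : Matrix (Fin (n + 2)) (Fin (n + 2)) (ZMod 2)) (hcol : ∀ k, M k 0 = e0 k)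
    (hrow : ∀ l, M 1 l = f1 l) (hb : blk M = 1) :
    M = MM (fun m => M 0 m + e0 m) (Fin.cons 0 (Fin.cons 0 (fun i => M i.succ.succ 1))) := by
  ext k m
  rw [MM_apply]
  refine Fin.cases ?_ (fun k' => ?_) k
  · rw [one_zero_eq, e0_zero, Fin.cons_zero]
    generalize M 0 m = x
    generalize (e0 : Fin (n + 2) → ZMod 2) m = y
    generalize (f1 : Fin (n + 2) → ZMod 2) m = w
    revert x y w
    decide
  · refine Fin.cases ?_ (fun i => ?_) k'
    · rw [Fin.succ_zero_eq_one, one_one_eq, e0_one, hrow]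
      have : (Fin.cons 0 (Fin.cons 0 (fun i : Fin n => M i.succ.succ 1)) : Fin (n + 2) → ZMod 2) 1
          = 0 := by
        rw [← Fin.succ_zero_eq_one, Fin.cons_succ, Fin.cons_zero]
      rw [this]
      simp
    · rw [e0_succ, Fin.cons_succ, Fin.cons_succ, zero_mul, add_zero]
      refine Fin.cases ?_ (fun m' => ?_) m
      · rw [hcol, e0_succ, f1_zero, mul_zero, add_zero, Matrix.one_apply,
          if_neg (Fin.succ_ne_zero _)]
      · refine Fin.cases ?_ (fun j => ?_) m'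
        · rw [Fin.succ_zero_eq_one, f1_one, mul_one, Matrix.one_apply, if_neg, zero_add]
          rw [← Fin.succ_zero_eq_one]
          intro h
          exact Fin.succ_ne_zero _ (Fin.succ_injective _ h)
        · rw [f1_succ_succ, mul_zero, add_zero]
          have := congrFun (congrFun hb i) j
          rw [blk_apply] at this
          rw [this]
          simp [Matrix.one_apply]

theorem mem_Q0_of_blk {z c : SLn n}
    (hz : (z : Matrix (Fin (n + 2)) (Fin (n + 2)) (ZMod 2)) = MM f1 0) (hc : Commute c z)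
    (hb : blk (c : Matrix (Fin (n + 2)) (Fin (n + 2)) (ZMod 2)) = 1) : c ∈ Q0 n := by
  obtain ⟨c1, c2⟩ := fix_of_commute hz hc
  have hcol := col_zero c1
  have hrow := row_one c2
  refine ⟨_, _, ?_, ?_, MM_of_blk _ hcol hrow hb⟩
  · simp only [hcol, e0_zero]; decide
  · rw [← Fin.succ_zero_eq_one, Fin.cons_succ, Fin.cons_zero]

theorem kap_commute {z : SLn n}
    (hz : (z : Matrix (Fin (n + 2)) (Fin (n + 2)) (ZMod 2)) = MM f1 0) (A : SLs n) :
    Commute (kap A) z := by
  apply commute_of_fix hz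
  · ext k
    rw [kap_coe, e0]
    simp only [mulVec_single_one, col_apply]
    refine Fin.cases ?_ (fun k' => ?_) k
    · simp
    · simp [Fin.succ_ne_zero]
  · ext l
    have e : ((f1 : Fin (n + 2) → ZMod 2) ᵥ* bord (bord (A : Matrix (Fin n) (Fin n) (ZMod 2)))) l
        = bord (bord (A : Matrix (Fin n) (Fin n) (ZMod 2))) 1 l := by
      rw [f1]; simp
    rw [kap_coe, e, ← Fin.succ_zero_eq_one]
    refine Fin.cases ?_ (fun l' => ?_) l
    · rw [bord_succ_zero, f1_zero]
    · rw [bord_succ_succ]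
      refine Fin.cases ?_ (fun l'' => ?_) l'
      · rw [bord_zero_zero, Fin.succ_zero_eq_one, f1_one]
      · rw [bord_zero_succ, f1_succ_succ]

theorem kap_injective : Function.Injective (kap (n := n)) := by
  intro A B h
  apply Subtype.ext
  have := congrArg (fun x : SLn n => blk (x : Matrix (Fin (n + 2)) (Fin (n + 2)) (ZMod 2))) h
  exact this

/-- decomposition `C = Q₀ K` -/
theorem exists_decomp {z c : SLn n}
    (hz : (z : Matrix (Fin (n + 2)) (Fin (n + 2)) (ZMod 2)) = MM f1 0) (hc : Commute c z) :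
    ∃ A : SLs n, c * (kap A)⁻¹ ∈ Q0 n := by
  obtain ⟨c1, c2⟩ := fix_of_commute hz hc
  obtain ⟨d1, d2⟩ := fix_of_commute hz hc.inv_left
  have h1 : blk (c : Matrix (Fin (n + 2)) (Fin (n + 2)) (ZMod 2))
      * blk ((c⁻¹ : SLn n) : Matrix (Fin (n + 2)) (Fin (n + 2)) (ZMod 2)) = 1 := by
    rw [← blk_mul _ _ (fun i => by rw [col_zero c1, e0_succ])
      (fun j => by rw [row_one d2, f1_succ_succ]), coe_mul_inv, blk_one]
  let A : SLs n := ⟨blk (c : Matrix (Fin (n + 2)) (Fin (n + 2)) (ZMod 2)), det_eq_one_of_mul h1⟩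
  refine ⟨A, ?_⟩
  apply mem_Q0_of_blk hz (hc.mul_left (kap_commute hz A).inv_left)
  obtain ⟨k1, k2⟩ := fix_of_commute hz (kap_commute hz A⁻¹)
  rw [← map_inv, coe_mul', blk_mul _ _ (fun i => by rw [col_zero c1, e0_succ])
      (fun j => by rw [row_one k2, f1_succ_succ]), kap_coe, blk_bord]
  exact coe_mul_inv_s A

theorem Q0_inf_range : Q0 n ⊓ (kap (n := n)).range = ⊥ := by
  rw [eq_bot_iff]
  rintro g ⟨⟨a, b, -, -, hg⟩, ⟨A, rfl⟩⟩
  have h1 : (A : Matrix (Fin n) (Fin n) (ZMod 2)) = 1 := by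
    have := congrArg blk hg
    rw [kap_coe, blk_bord, blk_MM] at this
    exact this
  have : A = 1 := Subtype.ext h1
  rw [this, map_one]
  exact Subgroup.mem_bot.2 rfl

theorem transvection_mulVec {m : ℕ} (i k : Fin m) (v : Fin m → ZMod 2) :
    (transvection i k 1 : Matrix (Fin m) (Fin m) (ZMod 2)) *ᵥ v = v + v k • Pi.single i 1 := by
  rw [transvection, add_mulVec, one_mulVec, single_eq_single_vecMulVec_single, vecMulVec_mulVec,
    single_dotProduct, one_mul]
  simp

/-- `O₂(SL_m(2)) = 1` for `m ≥ 2` -/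
theorem normal_two_subgroup_eq_bot {m : ℕ} (hm : 2 ≤ m) (N : Subgroup (SLs m)) (hn : N.Normal)
    (hN : IsPGroup 2 N) : N = ⊥ := by
  classical
  have : Fact (Nat.Prime 2) := ⟨Nat.prime_two⟩
  let act : MulAction N (Fin m → ZMod 2) :=
    { smul := fun g v => ((g : SLs m) : Matrix (Fin m) (Fin m) (ZMod 2)) *ᵥ v
      one_smul := fun v => one_mulVec v
      mul_smul := fun g h v => by
        change (((g : SLs m) : Matrix (Fin m) (Fin m) (ZMod 2)) *
          ((h : SLs m) : Matrix (Fin m) (Fin m) (ZMod 2))) *ᵥ v = _ *ᵥ (_ *ᵥ v)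
        rw [mulVec_mulVec] }
  have hsm : ∀ (g : N) (v : Fin m → ZMod 2),
      g • v = ((g : SLs m) : Matrix (Fin m) (Fin m) (ZMod 2)) *ᵥ v := fun _ _ => rfl
  have hcard : 2 ∣ Nat.card (Fin m → ZMod 2) := by
    rw [Nat.card_fun]
    simp only [Nat.card_eq_fintype_card, Fintype.card_fin, ZMod.card]
    exact dvd_pow_self 2 (by omega)
  have h0 : (0 : Fin m → ZMod 2) ∈ MulAction.fixedPoints N (Fin m → ZMod 2) := fun g => by
    rw [hsm, mulVec_zero]
  obtain ⟨v, hv, hv0⟩ :=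
    hN.exists_fixed_point_of_prime_dvd_card_of_fixed_point (Fin m → ZMod 2) hcard h0
  let U : Set (Fin m → ZMod 2) :=
    {w | ∀ g ∈ N, (g : Matrix (Fin m) (Fin m) (ZMod 2)) *ᵥ w = w}
  have hvU : v ∈ U := fun g hg => hv ⟨g, hg⟩
  have hadd : ∀ w w', w ∈ U → w' ∈ U → w + w' ∈ U := fun w w' h h' g hg => by
    rw [mulVec_add, h g hg, h' g hg]
  have hinv : ∀ (h : SLs m) w, w ∈ U → (h : Matrix (Fin m) (Fin m) (ZMod 2)) *ᵥ w ∈ U := by
    intro h w hw g hg
    have h1 : h⁻¹ * g * h ∈ N := by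
      have := hn.conj_mem g hg h⁻¹
      simpa using this
    have h2 := hw _ h1
    have e : (g : Matrix (Fin m) (Fin m) (ZMod 2)) * (h : Matrix (Fin m) (Fin m) (ZMod 2))
        = (h : Matrix (Fin m) (Fin m) (ZMod 2)) *
          ((h⁻¹ * g * h : SLs m) : Matrix (Fin m) (Fin m) (ZMod 2)) := by
      have : g * h = h * (h⁻¹ * g * h) := by group
      exact congrArg (fun x : SLs m => (x : Matrix (Fin m) (Fin m) (ZMod 2))) this
    rw [mulVec_mulVec, e, ← mulVec_mulVec, h2]
  obtain ⟨k, hk⟩ : ∃ k, v k ≠ 0 := by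
    by_contra hcon
    push Not at hcon
    exact hv0 (funext hcon).symm
  have hk1 : v k = 1 := (zmod2_cases (v k)).resolve_left hk
  have hself : ∀ w : Fin m → ZMod 2, w + w = 0 := fun w => by
    ext j; exact CharTwo.add_self_eq_zero (w j)
  have hei : ∀ i, i ≠ k → (Pi.single i 1 : Fin m → ZMod 2) ∈ U := by
    intro i hi
    have h1 := hinv ⟨transvection i k 1, det_transvection_of_ne i k hi 1⟩ v hvU
    change (transvection i k 1 : Matrix (Fin m) (Fin m) (ZMod 2)) *ᵥ v ∈ U at h1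
    rw [transvection_mulVec, hk1, one_smul] at h1
    have h2 := hadd _ _ h1 hvU
    have e : v + Pi.single i 1 + v = Pi.single i 1 := by
      rw [add_comm v, add_assoc, hself, add_zero]
    rwa [e] at h2
  have hek : (Pi.single k 1 : Fin m → ZMod 2) ∈ U := by
    have : Nontrivial (Fin m) := Fin.nontrivial_iff_two_le.2 hm
    obtain ⟨i, hi⟩ := exists_ne k
    have h1 := hinv ⟨transvection k i 1, det_transvection_of_ne k i hi.symm 1⟩ _ (hei i hi)
    change (transvection k i 1 : Matrix (Fin m) (Fin m) (ZMod 2)) *ᵥ _ ∈ U at h1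
    rw [transvection_mulVec, Pi.single_eq_same, one_smul] at h1
    have h2 := hadd _ _ h1 (hei i hi)
    have e : (Pi.single i 1 : Fin m → ZMod 2) + Pi.single k 1 + Pi.single i 1 = Pi.single k 1 := by
      rw [add_comm (Pi.single i 1 : Fin m → ZMod 2), add_assoc, hself, add_zero]
    rwa [e] at h2
  rw [eq_bot_iff]
  intro g hg
  rw [Subgroup.mem_bot]
  apply Subtype.ext
  ext a b
  have hb : (Pi.single b 1 : Fin m → ZMod 2) ∈ U := by
    by_cases hbk : b = k
    · rw [hbk]; exact hek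
    · exact hei b hbk
  have := congrFun (hb g hg) a
  simp only [mulVec_single_one, col_apply] at this
  rw [this]
  change _ = (1 : Matrix (Fin m) (Fin m) (ZMod 2)) a b
  rw [Matrix.one_apply, Pi.single_apply]

/-- a conjugate of `z` in `Q₀ ∖ {z}` -/
theorem exists_conj {z : SLn n} (hn : 1 ≤ n)
    (hz : (z : Matrix (Fin (n + 2)) (Fin (n + 2)) (ZMod 2)) = MM f1 0) :
    ∃ g : SLn n, g * z * g⁻¹ ∈ Q0 n ∧ g * z * g⁻¹ ≠ z := by
  have hk0 : Fin.last (n + 1) ≠ 0 := Fin.last_pos.ne'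
  have hk1 : Fin.last (n + 1) ≠ 1 := by
    intro h
    have := congrArg Fin.val h
    simp at this
    omega
  set k := Fin.last (n + 1) with hk
  let g : SLn n := ⟨transvection 1 k 1, det_transvection_of_ne 1 k hk1.symm 1⟩
  have hg : (g : Matrix (Fin (n + 2)) (Fin (n + 2)) (ZMod 2)) = 1 + vecMulVec f1 (Pi.single k 1) := by
    change transvection 1 k 1 = _
    rw [transvection, single_eq_single_vecMulVec_single]; rfl
  have d1 : (Pi.single k 1 : Fin (n + 2) → ZMod 2) ⬝ᵥ f1 = 0 := by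
    rw [single_dotProduct, one_mul, f1]; exact Pi.single_eq_of_ne hk1 1
  have d2 : (Pi.single k 1 : Fin (n + 2) → ZMod 2) ⬝ᵥ e0 = 0 := by
    rw [single_dotProduct, one_mul, e0]; exact Pi.single_eq_of_ne hk0 1
  have d3 : (f1 : Fin (n + 2) → ZMod 2) ⬝ᵥ f1 = 1 := by rw [f1_dot, f1_one]
  have hself : vecMulVec (f1 : Fin (n + 2) → ZMod 2) (Pi.single k 1)
      + vecMulVec (f1 : Fin (n + 2) → ZMod 2) (Pi.single k 1) = 0 := by
    ext i j
    exact CharTwo.add_self_eq_zero (vecMulVec (f1 : Fin (n + 2) → ZMod 2) (Pi.single k 1) i j)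
  have hgg : (g : Matrix (Fin (n + 2)) (Fin (n + 2)) (ZMod 2)) * g = 1 := by
    rw [hg, add_mul, mul_add, mul_add, one_mul, one_mul, mul_one, vecMulVec_mul_vecMulVec, d1,
      zero_smul, vecMulVec_zero, add_zero, add_assoc, hself, add_zero]
  have hginv := coe_inv_eq hgg
  have hconj : ((g * z * g⁻¹ : SLn n) : Matrix (Fin (n + 2)) (Fin (n + 2)) (ZMod 2))
      = MM (f1 + Pi.single k 1) 0 := by
    rw [coe_mul', coe_mul', hginv, hz, hg, MM, MM, zero_vecMulVec, add_zero, add_zero]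
    simp only [add_mul, mul_add, one_mul, mul_one, vecMulVec_mul_vecMulVec, d1, d2, d3, zero_smul,
      one_smul, vecMulVec_zero, add_zero, vecMulVec_add]
    have : ∀ X Y Z : Matrix (Fin (n + 2)) (Fin (n + 2)) (ZMod 2), Y + Y = 0 →
        1 + Y + X + (Y + Z) = 1 + (X + Z) := by
      intro X Y Z h
      calc 1 + Y + X + (Y + Z) = 1 + X + Z + (Y + Y) := by abel
        _ = 1 + (X + Z) := by rw [h, add_zero, add_assoc]
    exact this _ _ _ hself
  refine ⟨g, ⟨_, 0, ?_, rfl, hconj⟩, ?_⟩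
  · simp [f1_zero, Pi.single_eq_of_ne hk0.symm]
  · intro h
    have h1 := congrArg (fun x : SLn n => (x : Matrix (Fin (n + 2)) (Fin (n + 2)) (ZMod 2)) 0 k) h
    simp only [hconj, hz, MM_apply, e0_zero, one_mul, Pi.add_apply, Pi.single_eq_same,
      Pi.zero_apply, zero_mul, add_zero] at h1
    have h2 : (f1 : Fin (n + 2) → ZMod 2) k = 0 := by rw [f1]; exact Pi.single_eq_of_ne hk1 1
    rw [h2] at h1
    simp at h1

end Cfsg.Agent.Lib.Helper92.TSL
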