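import Mathlib
import Cfsg.Agent.Lib.Helper92.TransvSL2

set_option autoImplicit false

namespace Cfsg.Agent.Lib.Helper92.TSL

open Matrix

/-- coordinates on an elementary abelian 2-group -/
theorem exists_coord0 {A : Type*} [Group A] (hc : ∀ a b : A, a * b = b * a)
    (he : ∀ a : A, a ^ 2 = 1) (k : ℕ) (hcard : Nat.card A = 2 ^ k) :
    ∃ ε : A ≃ (Fin k → ZMod 2), ∀ a b, ε (a * b) = ε a + ε b := by
  have : Fact (Nat.Prime 2) := ⟨Nat.prime_two⟩
  letI : CommGroup A := { (inferInstance : Group A) with mul_comm := hc }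
  letI : Module (ZMod 2) (Additive A) := AddCommGroup.zmodModule (n := 2) (fun x => he x.toMul)
  have : Finite A := Nat.finite_of_card_ne_zero (by rw [hcard]; positivity)
  have : Finite (Additive A) := this
  have h1 := Module.natCard_eq_pow_finrank (K := ZMod 2) (V := Additive A)
  have h2 : Nat.card (Additive A) = 2 ^ k := hcard
  rw [h2, Nat.card_zmod] at h1
  have h3 : Module.finrank (ZMod 2) (Additive A) = k := (Nat.pow_right_injective le_rfl h1).symm
  let b := Module.finBasisOfFinrankEq (ZMod 2) (Additive A) h3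
  refine ⟨Additive.ofMul.trans b.equivFun.toEquiv, ?_⟩
  intro x y
  exact b.equivFun.map_add (Additive.ofMul x) (Additive.ofMul y)

theorem add_self_vec' {k : ℕ} (a : Fin k → ZMod 2) : a + a = 0 := by
  ext i; exact CharTwo.add_self_eq_zero _

/-- an additive involution moving a nonzero vector to the first basis vector -/
theorem exists_move {k : ℕ} (v : Fin (k + 1) → ZMod 2) (hv : v ≠ 0) :
    ∃ σ : (Fin (k + 1) → ZMod 2) ≃ (Fin (k + 1) → ZMod 2),
      (∀ x y, σ (x + y) = σ x + σ y) ∧ σ v = Pi.single 0 1 := by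
  obtain ⟨w, hw1, hw2⟩ : ∃ w : Fin (k + 1) → ZMod 2, v ⬝ᵥ w = 1 ∧ w 0 = 1 := by
    rcases zmod2_cases (v 0) with h0 | h0
    · obtain ⟨j, hj⟩ : ∃ j, v j ≠ 0 := by
        by_contra hcon
        push Not at hcon
        exact hv (funext hcon)
      have hj1 : v j = 1 := (zmod2_cases (v j)).resolve_left hj
      have hj0 : j ≠ 0 := by
        rintro rfl
        exact hj h0
      refine ⟨Pi.single 0 1 + Pi.single j 1, ?_, ?_⟩
      · rw [dotProduct_add, dotProduct_single, dotProduct_single, h0, hj1]; simp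
      · simp [Pi.single_eq_of_ne hj0.symm]
    · refine ⟨Pi.single 0 1, ?_, ?_⟩
      · rw [dotProduct_single, h0]; simp
      · simp
  let d : Fin (k + 1) → ZMod 2 := v + Pi.single 0 1
  have hd : d ⬝ᵥ w = 0 := by
    rw [add_dotProduct, hw1, single_dotProduct, hw2]; decide
  let f : (Fin (k + 1) → ZMod 2) → (Fin (k + 1) → ZMod 2) := fun x => x + (x ⬝ᵥ w) • d
  have hff : ∀ x, f (f x) = x := by
    intro x
    change x + (x ⬝ᵥ w) • d + ((x + (x ⬝ᵥ w) • d) ⬝ᵥ w) • d = x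
    rw [add_dotProduct, smul_dotProduct, hd, smul_zero, add_zero, add_assoc, add_self_vec',
      add_zero]
  refine ⟨⟨f, f, hff, hff⟩, ?_, ?_⟩
  · intro x y
    change x + y + ((x + y) ⬝ᵥ w) • d = x + (x ⬝ᵥ w) • d + (y + (y ⬝ᵥ w) • d)
    rw [add_dotProduct, add_smul]
    abel
  · change v + (v ⬝ᵥ w) • d = _
    rw [hw1, one_smul, ← add_assoc, add_self_vec', zero_add]

/-- coordinates on an elementary abelian 2-group, adapted to a nontrivial element -/
theorem exists_coord {A : Type*} [Group A] (hc : ∀ a b : A, a * b = b * a)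
    (he : ∀ a : A, a ^ 2 = 1) (k : ℕ) (hcard : Nat.card A = 2 ^ (k + 1)) (z : A) (hz : z ≠ 1) :
    ∃ ε : A ≃ (Fin (k + 1) → ZMod 2), (∀ a b, ε (a * b) = ε a + ε b) ∧ ε z = Pi.single 0 1 := by
  obtain ⟨ε, hε⟩ := exists_coord0 hc he (k + 1) hcard
  have h1 : ε 1 = 0 := by
    have := hε 1 1
    rw [mul_one] at this
    exact (add_eq_left.1 this.symm)
  have hv : ε z ≠ 0 := by
    intro h
    apply hz
    apply ε.injective
    rw [h, h1]
  obtain ⟨σ, hσ, hσv⟩ := exists_move (ε z) hv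
  refine ⟨ε.trans σ, ?_, hσv⟩
  intro a b
  change σ (ε (a * b)) = σ (ε a) + σ (ε b)
  rw [hε, hσ]

/-- the matrix (acting on row vectors) of a map -/
def matOf {k : ℕ} (f : (Fin k → ZMod 2) → (Fin k → ZMod 2)) : Matrix (Fin k) (Fin k) (ZMod 2) :=
  Matrix.of fun i j => f (Pi.single i 1) j

theorem vecMul_matOf {k : ℕ} (f : (Fin k → ZMod 2) → (Fin k → ZMod 2))
    (hf : ∀ x y, f (x + y) = f x + f y) (x : Fin k → ZMod 2) : x ᵥ* matOf f = f x := by
  let L : (Fin k → ZMod 2) →ₗ[ZMod 2] (Fin k → ZMod 2) := (AddMonoidHom.mk' f hf).toZModLinearMap 2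
  have hL : ∀ y, L y = f y := fun _ => rfl
  rw [← hL, LinearMap.pi_apply_eq_sum_univ L x, Matrix.vecMul_eq_sum]
  apply Finset.sum_congr rfl
  intro i _
  congr 1
  rw [hL]
  have : (fun j => if i = j then (1 : ZMod 2) else 0) = Pi.single i 1 := by
    ext j
    rw [Pi.single_apply]
    simp [eq_comm]
  rw [this]
  rfl

theorem mat_ext_vecMul {k : ℕ} {A B : Matrix (Fin k) (Fin k) (ZMod 2)}
    (h : ∀ x, x ᵥ* A = x ᵥ* B) : A = B := by
  ext i j
  have := congrFun (h (Pi.single i 1)) j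
  simpa using this

variable {n : ℕ}

theorem bord_mulVec_e0 (B : Matrix (Fin (n + 1)) (Fin (n + 1)) (ZMod 2)) :
    bord B *ᵥ e0 = e0 := by
  ext k
  rw [e0]
  simp only [mulVec_single_one, col_apply]
  refine Fin.cases ?_ (fun k' => ?_) k
  · simp
  · simp [Fin.succ_ne_zero]

theorem cons_vecMul_bord (B : Matrix (Fin (n + 1)) (Fin (n + 1)) (ZMod 2)) (c : ZMod 2)
    (x : Fin (n + 1) → ZMod 2) :
    (Fin.cons c x : Fin (n + 2) → ZMod 2) ᵥ* bord B = Fin.cons c (x ᵥ* B) := by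
  ext j
  refine Fin.cases ?_ (fun j' => ?_) j
  · simp [vecMul, dotProduct, Fin.sum_univ_succ]
  · simp [vecMul, dotProduct, Fin.sum_univ_succ]

theorem MM_mul_bord (a : Fin (n + 2) → ZMod 2) (B : Matrix (Fin (n + 1)) (Fin (n + 1)) (ZMod 2)) :
    MM a 0 * bord B = bord B + vecMulVec e0 (a ᵥ* bord B) := by
  rw [MM, zero_vecMulVec, add_zero, add_mul, one_mul, vecMulVec_mul]

theorem bord_mul_MM (a : Fin (n + 2) → ZMod 2) (B : Matrix (Fin (n + 1)) (Fin (n + 1)) (ZMod 2)) :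
    bord B * MM a 0 = bord B + vecMulVec e0 a := by
  rw [MM, zero_vecMulVec, add_zero, mul_add, mul_one, mul_vecMulVec, bord_mulVec_e0]

/-- the lower right block of size `n + 1` -/
def blk1 (M : Matrix (Fin (n + 2)) (Fin (n + 2)) (ZMod 2)) :
    Matrix (Fin (n + 1)) (Fin (n + 1)) (ZMod 2) :=
  Matrix.of fun i j => M i.succ j.succ

theorem blk1_apply (M : Matrix (Fin (n + 2)) (Fin (n + 2)) (ZMod 2)) (i j : Fin (n + 1)) :
    blk1 M i j = M i.succ j.succ := rfl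

theorem blk1_one : blk1 (1 : Matrix (Fin (n + 2)) (Fin (n + 2)) (ZMod 2)) = 1 := by
  ext i j
  simp [blk1_apply, Matrix.one_apply]

theorem blk1_mul (M M' : Matrix (Fin (n + 2)) (Fin (n + 2)) (ZMod 2))
    (h : ∀ i : Fin (n + 1), M i.succ 0 = 0) : blk1 (M * M') = blk1 M * blk1 M' := by
  ext i j
  rw [blk1_apply, Matrix.mul_apply, Matrix.mul_apply, Fin.sum_univ_succ, h]
  simp [blk1_apply]

/-- decomposition of the stabilizer of `e0` -/
theorem exists_decomp_stab (c : SLn n)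
    (hc : (c : Matrix (Fin (n + 2)) (Fin (n + 2)) (ZMod 2)) *ᵥ e0 = e0) :
    ∃ (B B' : Matrix (Fin (n + 1)) (Fin (n + 1)) (ZMod 2)) (x : Fin (n + 1) → ZMod 2),
      B * B' = 1 ∧ B' * B = 1 ∧
      (c : Matrix (Fin (n + 2)) (Fin (n + 2)) (ZMod 2)) = MM (Fin.cons 0 x) 0 * bord B := by
  have hc' : ((c⁻¹ : SLn n) : Matrix (Fin (n + 2)) (Fin (n + 2)) (ZMod 2)) *ᵥ e0 = e0 := by
    conv_lhs => rw [← hc]
    rw [mulVec_mulVec, coe_inv_mul, one_mulVec]
  have h1 : ∀ i : Fin (n + 1), (c : Matrix (Fin (n + 2)) (Fin (n + 2)) (ZMod 2)) i.succ 0 = 0 :=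
    fun i => by rw [col_zero hc, e0_succ]
  have h2 : ∀ i : Fin (n + 1),
      ((c⁻¹ : SLn n) : Matrix (Fin (n + 2)) (Fin (n + 2)) (ZMod 2)) i.succ 0 = 0 :=
    fun i => by rw [col_zero hc', e0_succ]
  have e1 : blk1 (c : Matrix (Fin (n + 2)) (Fin (n + 2)) (ZMod 2)) *
      blk1 ((c⁻¹ : SLn n) : Matrix (Fin (n + 2)) (Fin (n + 2)) (ZMod 2)) = 1 := by
    rw [← blk1_mul _ _ h1, coe_mul_inv, blk1_one]
  have e2 : blk1 ((c⁻¹ : SLn n) : Matrix (Fin (n + 2)) (Fin (n + 2)) (ZMod 2)) *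
      blk1 (c : Matrix (Fin (n + 2)) (Fin (n + 2)) (ZMod 2)) = 1 := by
    rw [← blk1_mul _ _ h2, coe_inv_mul, blk1_one]
  refine ⟨_, _, (fun j => (c : Matrix (Fin (n + 2)) (Fin (n + 2)) (ZMod 2)) 0 j.succ) ᵥ*
    blk1 ((c⁻¹ : SLn n) : Matrix (Fin (n + 2)) (Fin (n + 2)) (ZMod 2)), e1, e2, ?_⟩
  rw [MM_mul_bord, cons_vecMul_bord, vecMul_vecMul, e2, vecMul_one]
  ext i j
  rw [Matrix.add_apply, vecMulVec_apply]
  refine Fin.cases ?_ (fun i' => ?_) i <;> refine Fin.cases ?_ (fun j' => ?_) j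
  · rw [col_zero hc, e0_zero]; simp
  · rw [e0_zero]; simp
  · rw [h1, e0_succ]; simp
  · rw [e0_succ]; simp [blk1_apply]

end Cfsg.Agent.Lib.Helper92.TSL
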