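import Mathlib

set_option autoImplicit false
open scoped Pointwise

namespace Cfsg.Agent.Lib.Helper92

theorem exists_decomp_of_sup_eq_top {G : Type*} [Group G] (U M : Subgroup G) [hU : U.Normal]
    (h2 : U ⊔ M = ⊤) (g : G) : ∃ (u : U) (m : M), g = u * m := by
  have hg : g ∈ U ⊔ M := h2 ▸ Subgroup.mem_top g
  have : g ∈ (U : Set G) * (M : Set G) := by
    rw [← Subgroup.normal_mul]; exact hg
  obtain ⟨u, hu, m, hm, rfl⟩ := this
  exact ⟨⟨u, hu⟩, ⟨m, hm⟩, rfl⟩

/-- homomorphisms out of an internal semidirect product -/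
theorem exists_hom_of_semidirect {G H : Type*} [Group G] [Group H] (U M : Subgroup G) [hU : U.Normal]
    (h1 : U ⊓ M = ⊥) (h2 : U ⊔ M = ⊤) (fU : U →* H) (fM : M →* H)
    (hc : ∀ (m : M) (u : U), fM m * fU u * (fM m)⁻¹ = fU ⟨m * u * (m : G)⁻¹, hU.conj_mem u u.2 m⟩) :
    ∃ Θ : G →* H, ∀ (u : U) (m : M), Θ (u * m) = fU u * fM m := by
  classical
  have hex : ∀ g : G, ∃ (u : U) (m : M), g = u * m := by
    intro g
    have hg : g ∈ U ⊔ M := h2 ▸ Subgroup.mem_top g
    have : g ∈ (U : Set G) * (M : Set G) := by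
      rw [← Subgroup.normal_mul]; exact hg
    obtain ⟨u, hu, m, hm, rfl⟩ := this
    exact ⟨⟨u, hu⟩, ⟨m, hm⟩, rfl⟩
  have huniq : ∀ (u u' : U) (m m' : M), (u : G) * m = u' * m' → u = u' ∧ m = m' := by
    intro u u' m m' h
    have e : (u' : G)⁻¹ * u = m' * (m : G)⁻¹ := by
      calc (u' : G)⁻¹ * u = (u' : G)⁻¹ * (u * m) * (m : G)⁻¹ := by group
        _ = m' * (m : G)⁻¹ := by rw [h]; group
    have hmem : (u' : G)⁻¹ * u ∈ U ⊓ M :=
      ⟨U.mul_mem (U.inv_mem u'.2) u.2, e ▸ M.mul_mem m'.2 (M.inv_mem m.2)⟩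
    rw [h1, Subgroup.mem_bot] at hmem
    constructor
    · apply Subtype.ext
      exact (inv_mul_eq_one.1 hmem).symm
    · apply Subtype.ext
      rw [hmem] at e
      exact (mul_inv_eq_one.1 e.symm).symm
  choose du dm hd using hex
  have key : ∀ (u : U) (m : M), fU (du (u * m)) * fM (dm (u * m)) = fU u * fM m := by
    intro u m
    obtain ⟨e1, e2⟩ := huniq _ _ _ _ (hd (u * m))
    rw [← e1, ← e2]
  refine ⟨{ toFun := fun g => fU (du g) * fM (dm g), map_one' := ?_, map_mul' := ?_ }, key⟩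
  · have := key 1 1
    simpa using this
  · intro g g'
    have e : g * g' = ((du g * ⟨dm g * du g' * (dm g : G)⁻¹, hU.conj_mem _ (du g').2 _⟩ : U) : G)
        * ((dm g * dm g' : M) : G) := by
      conv_lhs => rw [hd g, hd g']
      simp only [Subgroup.coe_mul]
      group
    rw [e, key, map_mul, map_mul, ← hc]
    group

end Cfsg.Agent.Lib.Helper92
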