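import Mathlib
import Cfsg.Prelude
import Cfsg.Agent.Lib.Helper92.AffineSL
import Cfsg.Agent.Lib.Helper92.SemiHom

set_option autoImplicit false

namespace Cfsg.Agent.Lib.Helper92.TSL

open Matrix

variable {n : ℕ}

theorem cons_zero_add (x y : Fin (n + 1) → ZMod 2) :
    (Fin.cons 0 (x + y) : Fin (n + 2) → ZMod 2) = Fin.cons 0 x + Fin.cons 0 y := by
  ext j
  refine Fin.cases ?_ (fun j' => ?_) j <;> simp

theorem cons_zero_zero : (Fin.cons 0 (0 : Fin (n + 1) → ZMod 2) : Fin (n + 2) → ZMod 2) = 0 := by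
  ext j
  refine Fin.cases ?_ (fun j' => ?_) j <;> simp

theorem cons_zero_single : (Fin.cons 0 (Pi.single 0 1 : Fin (n + 1) → ZMod 2) : Fin (n + 2) → ZMod 2)
    = f1 := by
  ext j
  refine Fin.cases ?_ (fun j' => ?_) j
  · rw [Fin.cons_zero, f1_zero]
  · rw [Fin.cons_succ, f1, Pi.single_apply, Pi.single_apply, ← Fin.succ_zero_eq_one]
    by_cases h : j' = 0
    · rw [if_pos h, if_pos (by rw [h])]
    · rw [if_neg h, if_neg (fun h' => h (Fin.succ_injective _ h'))]

theorem blk1_bord_add (B : Matrix (Fin (n + 1)) (Fin (n + 1)) (ZMod 2)) (w : Fin (n + 2) → ZMod 2) :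
    blk1 (bord B + vecMulVec e0 w) = B := by
  ext i j
  rw [blk1_apply, Matrix.add_apply, vecMulVec_apply, e0_succ]
  simp

/-- the holomorph of an elementary abelian group of order `2^(n+1)` embeds in `SL_{n+2}(2)` as
the stabilizer of a vector -/
theorem exists_embedding {G : Type*} [Group G] (n : ℕ) (U M : Subgroup G) [hUn : U.Normal]
    (hU : Cfsg.IsElementaryAbelian 2 U) (hUcard : Nat.card ↥U = 2 ^ (n + 1)) (hUM : U ⊓ M = ⊥)
    (hUM' : U ⊔ M = ⊤) (hfaith : ∀ m ∈ M, (∀ u ∈ U, m * u * m⁻¹ = u) → m = 1)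
    (hfull : ∀ φ : ↥U ≃* ↥U, ∃ m ∈ M, ∀ u : ↥U, ((φ u : ↥U) : G) = m * u * m⁻¹)
    (z : G) (hzU : z ∈ U) (hz1 : z ≠ 1) :
    ∃ Θ : G →* SLn n, Function.Injective Θ ∧
      (∀ c : SLn n, (c : Matrix (Fin (n + 2)) (Fin (n + 2)) (ZMod 2)) *ᵥ e0 = e0 → c ∈ Θ.range) ∧
      (Θ z : Matrix (Fin (n + 2)) (Fin (n + 2)) (ZMod 2)) = MM f1 0 ∧ ∀ u ∈ U, Θ u ∈ Q0 n := by
  obtain ⟨ε, hε, hεz⟩ := exists_coord (A := ↥U) (fun a b => hU.1.is_comm.comm a b)
    (fun a => Subtype.ext (by simpa using hU.2 a a.2)) n hUcard ⟨z, hzU⟩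
    (fun h => hz1 (congrArg Subtype.val h))
  have hε1 : ε 1 = 0 := by
    have := hε 1 1
    rw [mul_one] at this
    exact (add_eq_left.1 this.symm)
  have hεs : ∀ x y, ε.symm (x + y) = ε.symm x * ε.symm y := by
    intro x y
    apply ε.injective
    rw [hε]; simp
  let cj : G → ↥U → ↥U := fun g u => ⟨g * u * g⁻¹, hUn.conj_mem u u.2 g⟩
  have cj_mul : ∀ g u u', cj g (u * u') = cj g u * cj g u' := by
    intro g u u'
    apply Subtype.ext
    change g * (u * u') * g⁻¹ = (g * u * g⁻¹) * (g * u' * g⁻¹)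
    group
  have cj_comp : ∀ g h u, cj g (cj h u) = cj (g * h) u := by
    intro g h u
    apply Subtype.ext
    change g * (h * u * h⁻¹) * g⁻¹ = (g * h) * u * (g * h)⁻¹
    group
  have cj_one : ∀ u, cj 1 u = u := by
    intro u
    apply Subtype.ext
    change 1 * (u : G) * 1⁻¹ = u
    group
  let T : G → (Fin (n + 1) → ZMod 2) → (Fin (n + 1) → ZMod 2) := fun g x => ε (cj g (ε.symm x))
  have T_add : ∀ g x y, T g (x + y) = T g x + T g y := by
    intro g x y
    change ε (cj g (ε.symm (x + y))) = ε (cj g (ε.symm x)) + ε (cj g (ε.symm y))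
    rw [hεs, cj_mul, hε]
  have T_comp : ∀ g h x, T g (T h x) = T (g * h) x := by
    intro g h x
    change ε (cj g (ε.symm (ε (cj h (ε.symm x))))) = ε (cj (g * h) (ε.symm x))
    rw [ε.symm_apply_apply, cj_comp]
  have T_one : ∀ x, T 1 x = x := by
    intro x
    change ε (cj 1 (ε.symm x)) = x
    rw [cj_one, ε.apply_symm_apply]
  let A : G → Matrix (Fin (n + 1)) (Fin (n + 1)) (ZMod 2) := fun g => matOf (T g⁻¹)
  have hA : ∀ g x, x ᵥ* A g = T g⁻¹ x := fun g x => vecMul_matOf _ (T_add _) x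
  have A_mul : ∀ g h, A (g * h) = A g * A h := by
    intro g h
    apply mat_ext_vecMul
    intro x
    rw [← vecMul_vecMul, hA, hA, hA, T_comp, _root_.mul_inv_rev]
  have A_one : A 1 = 1 := by
    apply mat_ext_vecMul
    intro x
    rw [hA, inv_one, T_one, vecMul_one]
  let fM : M →* SLn n :=
    { toFun := fun m => ⟨bord (A m), det_eq_one_of_mul (M' := bord (A (m : G)⁻¹)) (by
        rw [← bord_mul, ← A_mul, mul_inv_cancel, A_one, bord_one])⟩
      map_one' := by
        apply Subtype.ext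
        change bord (A 1) = 1
        rw [A_one, bord_one]
      map_mul' := fun m m' => by
        apply Subtype.ext
        change bord (A (m * m')) = bord (A m) * bord (A m')
        rw [A_mul, bord_mul] }
  have fM_coe : ∀ m : M, (fM m : Matrix (Fin (n + 2)) (Fin (n + 2)) (ZMod 2)) = bord (A m) :=
    fun _ => rfl
  let fU : U →* SLn n :=
    { toFun := fun u => mk (Fin.cons 0 (ε u)) 0 (Fin.cons_zero _ _) rfl
      map_one' := by
        apply Subtype.ext
        change MM (Fin.cons 0 (ε 1)) 0 = 1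
        rw [hε1, cons_zero_zero, MM_zero]
      map_mul' := fun u u' => by
        apply Subtype.ext
        change MM (Fin.cons 0 (ε (u * u'))) 0 = MM (Fin.cons 0 (ε u)) 0 * MM (Fin.cons 0 (ε u')) 0
        rw [MM_mul _ _ _ _ (Fin.cons_zero _ _) rfl, hε, cons_zero_add]
        simp }
  have fU_coe : ∀ u : U, (fU u : Matrix (Fin (n + 2)) (Fin (n + 2)) (ZMod 2))
      = MM (Fin.cons 0 (ε u)) 0 := fun _ => rfl
  have hc : ∀ (m : M) (u : U), fM m * fU u * (fM m)⁻¹
      = fU ⟨m * u * (m : G)⁻¹, hUn.conj_mem u u.2 m⟩ := by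
    intro m u
    rw [mul_inv_eq_iff_eq_mul]
    apply Subtype.ext
    rw [coe_mul', coe_mul', fM_coe, fU_coe, fU_coe, bord_mul_MM, MM_mul_bord, cons_vecMul_bord, hA]
    have : T (m : G)⁻¹ (ε ⟨m * u * (m : G)⁻¹, hUn.conj_mem u u.2 m⟩) = ε u := by
      change ε (cj (m : G)⁻¹ (ε.symm (ε (cj m u)))) = ε u
      rw [ε.symm_apply_apply, cj_comp, inv_mul_cancel, cj_one]
    rw [this]
  obtain ⟨Θ, hΘ⟩ := exists_hom_of_semidirect U M hUM hUM' fU fM hc
  have hΘU : ∀ u : U, Θ u = fU u := by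
    intro u
    have := hΘ u 1
    simpa using this
  refine ⟨Θ, ?_, ?_, ?_, ?_⟩
  · rw [injective_iff_map_eq_one]
    intro g hg
    obtain ⟨u, m, rfl⟩ := exists_decomp_of_sup_eq_top U M hUM' g
    rw [hΘ] at hg
    have h1 := congrArg (fun x : SLn n => (x : Matrix (Fin (n + 2)) (Fin (n + 2)) (ZMod 2))) hg
    change (fU u * fM m : SLn n).1 = 1 at h1
    rw [coe_mul', fM_coe, fU_coe, MM_mul_bord] at h1
    have h2 := congrArg blk1 h1
    rw [blk1_bord_add, blk1_one] at h2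
    have h3 : (m : G)⁻¹ = 1 := by
      apply hfaith _ (M.inv_mem m.2)
      intro v hv
      have h4 := hA m (ε ⟨v, hv⟩)
      rw [h2, vecMul_one] at h4
      change ε ⟨v, hv⟩ = ε (cj (m : G)⁻¹ (ε.symm (ε ⟨v, hv⟩))) at h4
      rw [ε.symm_apply_apply] at h4
      exact (congrArg Subtype.val (ε.injective h4)).symm
    have h5 : m = 1 := Subtype.ext (inv_eq_one.1 h3)
    rw [h5, map_one, mul_one] at hg
    have h6 : ε u = 0 := by
      ext j
      have := congrArg (fun x : SLn n => (x : Matrix (Fin (n + 2)) (Fin (n + 2)) (ZMod 2)) 0 j.succ) hg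
      change (fU u).1 0 j.succ = (1 : Matrix (Fin (n + 2)) (Fin (n + 2)) (ZMod 2)) 0 j.succ at this
      rw [fU_coe, MM_apply, e0_zero, Fin.cons_succ] at this
      simpa using this
    have h7 : u = 1 := ε.injective (by rw [h6, hε1])
    rw [h5, h7]
    simp
  · intro c hcfix
    obtain ⟨B, B', x, e1, e2, hcB⟩ := exists_decomp_stab c hcfix
    let φ : ↥U ≃* ↥U :=
      { toFun := fun u => ε.symm (ε u ᵥ* B')
        invFun := fun u => ε.symm (ε u ᵥ* B)
        left_inv := fun u => by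
          change ε.symm (ε (ε.symm (ε u ᵥ* B')) ᵥ* B) = u
          rw [ε.apply_symm_apply, vecMul_vecMul, e2, vecMul_one, ε.symm_apply_apply]
        right_inv := fun u => by
          change ε.symm (ε (ε.symm (ε u ᵥ* B)) ᵥ* B') = u
          rw [ε.apply_symm_apply, vecMul_vecMul, e1, vecMul_one, ε.symm_apply_apply]
        map_mul' := fun u u' => by
          change ε.symm (ε (u * u') ᵥ* B') = ε.symm (ε u ᵥ* B') * ε.symm (ε u' ᵥ* B')
          rw [hε, add_vecMul, hεs] }
    obtain ⟨m, hm, hφ⟩ := hfull φ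
    have hφ' : ∀ u, cj m u = φ u := fun u => Subtype.ext (hφ u).symm
    have hAm : A m = B := by
      apply mat_ext_vecMul
      intro y
      rw [hA]
      change ε (cj m⁻¹ (ε.symm y)) = y ᵥ* B
      have h1 : cj m⁻¹ (ε.symm y) = φ.symm (ε.symm y) := by
        have := hφ' (φ.symm (ε.symm y))
        rw [φ.apply_symm_apply] at this
        rw [← this, cj_comp, inv_mul_cancel, cj_one, this]
      rw [h1]
      change ε (ε.symm (ε (ε.symm y) ᵥ* B)) = y ᵥ* B
      rw [ε.apply_symm_apply, ε.apply_symm_apply]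
    refine ⟨(ε.symm x : G) * m, ?_⟩
    have := hΘ (ε.symm x) ⟨m, hm⟩
    change Θ ((ε.symm x : G) * m) = _ at this
    rw [this]
    apply Subtype.ext
    rw [coe_mul', fM_coe, fU_coe, ε.apply_symm_apply, hcB]
    change _ * bord (A m) = _
    rw [hAm]
  · have := hΘU ⟨z, hzU⟩
    change Θ z = _ at this
    rw [this, fU_coe, hεz, cons_zero_single]
  · intro u hu
    have := hΘU ⟨u, hu⟩
    change Θ u = _ at this
    rw [this]
    exact mk_mem _ _ (Fin.cons_zero _ _) rfl

end Cfsg.Agent.Lib.Helper92.TSL
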