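import Mathlib
import Cfsg.Agent.Lib.Helper49.HypSub

set_option autoImplicit false

namespace Cfsg.Agent.Lib.Helper92

open QuadraticMap Module Cfsg.Agent.Lib.Helper49

section base

variable {F W : Type*} [Field F] [AddCommGroup W] [Module F W] (q : QuadraticForm F W)

theorem q_add' (x y : W) : q (x + y) = q x + q y + polar q x y := by
  simp only [polar]; ring

/-- projection to the orthogonal complement of a hyperbolic pair -/
def hproj (u u' w : W) : W := w - polar q w u' • u - polar q w u • u'

theorem polar_hproj {u u' : W} (hu : q u = 0) (hu' : q u' = 0) (h : polar q u u' = 1) (w : W) :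
    polar q u (hproj q u u' w) = 0 ∧ polar q u' (hproj q u u' w) = 0 := by
  unfold hproj
  constructor
  · rw [polar_sub_right, polar_sub_right, polar_smul_right, polar_smul_right, polar_self, hu, h,
      polar_comm q u w]
    simp
  · rw [polar_sub_right, polar_sub_right, polar_smul_right, polar_smul_right, polar_self, hu',
      polar_comm q u' u, h, polar_comm q u' w]
    simp

theorem q_sing {u u' x : W} (hu : q u = 0) (hu' : q u' = 0) (h : polar q u u' = 1)
    (hx : polar q u x = 0) (hx' : polar q u' x = 0) : q (x - q x • u + u') = 0 := by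
  rw [q_add', Q_sub_smul, hu, hu', hx, polar_sub_left, polar_smul_left, h, polar_comm q x u', hx']
  simp

theorem q_smul_sing {s : W} (hs : q s = 0) (c : F) : q (c • s) = 0 := by
  rw [QuadraticMap.map_smul, hs, smul_zero]

/-- every vector is a sum of three singular vectors -/
theorem exists_three_sing {u u' : W} (hu : q u = 0) (hu' : q u' = 0) (h : polar q u u' = 1)
    (w : W) : ∃ (s : W) (a b : F), q s = 0 ∧ w = s + a • u + b • u' := by
  obtain ⟨h1, h2⟩ := polar_hproj q hu hu' h w
  refine ⟨_, q (hproj q u u' w) + polar q w u', polar q w u - 1, q_sing q hu hu' h h1 h2, ?_⟩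
  unfold hproj
  module

end base

section fin

variable {F W : Type*} [Field F] [Fintype F] [AddCommGroup W] [Module F W]
  [FiniteDimensional F W] (q : QuadraticForm F W)

theorem exists_sing_perp2 (hd : 5 ≤ finrank F W) (x y : W) :
    ∃ s, s ≠ 0 ∧ q s = 0 ∧ polar q x s = 0 ∧ polar q y s = 0 := by
  have h1 := finrank_le_inf_ker_add_one (⊤ : Submodule F W) (polarBilin q x)
  have h2 := finrank_le_inf_ker_add_one (⊤ ⊓ LinearMap.ker (polarBilin q x)) (polarBilin q y)
  rw [finrank_top] at h1
  have hq : 1 < Fintype.card F := Fintype.one_lt_card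
  have hc : Fintype.card F ^ 2 < Nat.card
      ↥((⊤ : Submodule F W) ⊓ LinearMap.ker (polarBilin q x) ⊓ LinearMap.ker (polarBilin q y)) := by
    rw [Module.natCard_eq_pow_finrank (K := F), Nat.card_eq_fintype_card]
    exact Nat.pow_lt_pow_right hq (by omega)
  obtain ⟨e, he, he0, hQe⟩ := Cfsg.Agent.Lib.Helper50.Quad.exists_singular (Q := q) _ hc
  simp only [Submodule.mem_inf, Submodule.mem_top, true_and, LinearMap.mem_ker,
    polarBilin_apply_apply] at he
  exact ⟨e, he0, hQe, he.1, he.2⟩

omit [Fintype F] [FiniteDimensional F W] in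
theorem exists_partner (hq : (polarBilin q).Nondegenerate) {u : W} (hu : q u = 0) (hu0 : u ≠ 0) :
    ∃ u', q u' = 0 ∧ polar q u u' = 1 := by
  have : ∃ t, polar q u t ≠ 0 := by
    by_contra hcon
    push Not at hcon
    exact hu0 (hq.1 u (fun t => hcon t))
  obtain ⟨t, ht⟩ := this
  obtain ⟨f, -, h1, h2⟩ := exists_hyp_partner q ⊤ (Submodule.mem_top) (Submodule.mem_top) hu ht
  exact ⟨f, h1, h2⟩

end fin

/-- RUNG SEMI-A -/
theorem semilinear_of_singular {F W : Type*} [Field F] [Fintype F] [AddCommGroup W] [Module F W]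
    [FiniteDimensional F W] (q : QuadraticForm F W) (hq : (polarBilin q).Nondegenerate)
    (hd : 5 ≤ finrank F W) (φ : W ≃+ W) (h1 : ∀ w, q w = 0 ↔ q (φ w) = 0)
    (h2 : ∀ w, q w = 0 → ∀ c : F, ∃ c' : F, φ (c • w) = c' • φ w)
    (h2' : ∀ w, q w = 0 → ∀ c : F, ∃ c' : F, φ.symm (c • w) = c' • φ.symm w) :
    ∃ σ : F ≃+* F, ∀ (a : F) (w : W), φ (a • w) = σ a • φ w := by
  choose! τ hτ using h2
  have hφ0 : ∀ {w : W}, w ≠ 0 → φ w ≠ 0 := fun hw h => hw ((AddEquiv.map_eq_zero_iff φ).1 h)
  have hind : ∀ {u v : W}, q u = 0 → u ≠ 0 → (∀ c : F, v ≠ c • u) → ∀ α β : F,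
      α • φ u + β • φ v = 0 → α = 0 ∧ β = 0 := by
    intro u v hu hu0 huv α β h
    have hβ : β = 0 := by
      by_contra hβ
      have e : φ v = (-(β⁻¹ * α)) • φ u := by
        have : β • φ v = -(α • φ u) := by rw [eq_neg_iff_add_eq_zero, add_comm]; exact h
        calc φ v = β⁻¹ • (β • φ v) := by rw [smul_smul, inv_mul_cancel₀ hβ, one_smul]
          _ = _ := by rw [this, smul_neg, smul_smul, neg_smul]
      obtain ⟨c', hc'⟩ := h2' (φ u) ((h1 u).1 hu) (-(β⁻¹ * α))
      rw [← e, AddEquiv.symm_apply_apply, AddEquiv.symm_apply_apply] at hc'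
      exact huv c' hc'
    subst hβ
    rw [zero_smul, add_zero] at h
    exact ⟨(smul_eq_zero.1 h).resolve_right (hφ0 hu0), rfl⟩
  have hb : ∀ {u v : W}, q u = 0 → q v = 0 → u ≠ 0 → polar q u v = 0 → (∀ c : F, v ≠ c • u) →
      τ u = τ v := by
    intro u v hu hv hu0 huv hne
    have huv0 : q (u + v) = 0 := by rw [q_add', hu, hv, huv]; simp
    funext c
    have e1 := hτ (u + v) huv0 c
    rw [smul_add, map_add, hτ u hu c, hτ v hv c, map_add, smul_add] at e1
    have e2 : (τ u c - τ (u + v) c) • φ u + (τ v c - τ (u + v) c) • φ v = 0 := by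
      rw [sub_smul, sub_smul]
      have := sub_eq_zero.2 e1
      rw [← this]; abel
    obtain ⟨e3, e4⟩ := hind hu hu0 hne _ _ e2
    rw [sub_eq_zero] at e3 e4
    rw [e3, e4]
  have hc : ∀ {u v : W}, q u = 0 → q v = 0 → u ≠ 0 → v ≠ 0 → τ u = τ v := by
    intro u v hu hv hu0 hv0
    by_cases hp : polar q u v = 0
    · by_cases hne : ∀ c : F, v ≠ c • u
      · exact hb hu hv hu0 hp hne
      · push Not at hne
        obtain ⟨c, rfl⟩ := hne
        obtain ⟨u', hu', huu'⟩ := exists_partner q hq hu hu0
        obtain ⟨y, hy0, hy, hyu, hyu'⟩ := exists_sing_perp2 q hd u u'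
        have hyne : ∀ d : F, y ≠ d • u := by
          rintro d rfl
          rw [polar_smul_right, polar_comm, huu', smul_eq_mul, mul_one] at hyu'
          subst hyu'
          exact hy0 (zero_smul _ _)
        have e1 := hb hu hy hu0 hyu hyne
        have e2 := hb hv hy hv0 (by rw [polar_smul_left, hyu, smul_zero]) (by
          intro d; rw [smul_smul]; exact hyne _)
        rw [e1, e2]
    · obtain ⟨y, hy0, hy, hyu, hyv⟩ := exists_sing_perp2 q hd u v
      have h3 : ∀ d : F, y ≠ d • u := by
        rintro d rfl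
        rw [polar_smul_right, polar_comm, smul_eq_mul] at hyv
        rcases mul_eq_zero.1 hyv with h | h
        · subst h; exact hy0 (zero_smul _ _)
        · exact hp h
      have h4 : ∀ d : F, y ≠ d • v := by
        rintro d rfl
        rw [polar_smul_right, smul_eq_mul] at hyu
        rcases mul_eq_zero.1 hyu with h | h
        · subst h; exact hy0 (zero_smul _ _)
        · exact hp h
      rw [hb hu hy hu0 hyu h3, hb hv hy hv0 hyv h4]
  obtain ⟨u, -, u', -, hu, hu', huu'⟩ := exists_hyp_pair_mem q hq ⊤ (by rw [finrank_top]; omega)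
  have hu0 : u ≠ 0 := by
    rintro rfl
    simp at huu'
  have hs : ∀ (w : W), q w = 0 → ∀ c, φ (c • w) = τ u c • φ w := by
    intro w hw c
    by_cases hw0 : w = 0
    · subst hw0; simp
    · rw [hτ w hw c, hc hu hw hu0 hw0]
  have hcancel : ∀ {a b : F}, a • φ u = b • φ u → a = b := by
    intro a b h
    have : (a - b) • φ u = 0 := by rw [sub_smul, h, sub_self]
    exact sub_eq_zero.1 ((smul_eq_zero.1 this).resolve_right (hφ0 hu0))
  let σ₀ : F →+* F :=
    { toFun := τ u
      map_one' := hcancel (by rw [← hs u hu 1, one_smul, one_smul])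
      map_mul' := fun a b => hcancel (by
        rw [← hs u hu (a * b), mul_smul, hs (b • u) (q_smul_sing q hu b) a, hs u hu b, smul_smul])
      map_zero' := hcancel (by rw [← hs u hu 0, zero_smul, zero_smul, map_zero])
      map_add' := fun a b => hcancel (by
        rw [← hs u hu (a + b), add_smul, map_add, hs u hu a, hs u hu b, add_smul]) }
  have hbij : Function.Bijective σ₀ := Finite.injective_iff_bijective.1 σ₀.injective
  refine ⟨RingEquiv.ofBijective σ₀ hbij, ?_⟩
  intro a w
  obtain ⟨s, α, β, hs0, rfl⟩ := exists_three_sing q hu hu' huu' w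
  show _ = τ u a • _
  rw [smul_add, smul_add, map_add, map_add, map_add, map_add, hs s hs0 a,
    hs _ (q_smul_sing q hu α) a, hs _ (q_smul_sing q hu' β) a, smul_add, smul_add]

end Cfsg.Agent.Lib.Helper92
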