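import Mathlib
import Cfsg.Agent.Lib.Helper92.AutOSemiA

set_option autoImplicit false

namespace Cfsg.Agent.Lib.Helper92

open QuadraticMap Module Cfsg.Agent.Lib.Helper49

theorem q_hyp_expand {F W : Type*} [Field F] [AddCommGroup W] [Module F W] (q : QuadraticForm F W)
    {X U U' : W} (hU : q U = 0) (hU' : q U' = 0) (hX : polar q U X = 0) (hX' : polar q U' X = 0)
    (a b : F) : q (X + a • U + b • U') = q X + a * b * polar q U U' := by
  rw [q_add', q_add', q_smul_sing q hU, q_smul_sing q hU', polar_smul_right, polar_comm q X U, hX,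
    polar_smul_right, polar_add_left, polar_comm q X U', hX', polar_smul_left]
  simp only [smul_eq_mul]
  ring

/-- RUNG SEMI-B -/
theorem semisimilar_of_singular {F W : Type*} [Field F] [Fintype F] [AddCommGroup W] [Module F W]
    [FiniteDimensional F W] (q : QuadraticForm F W) (hq : (polarBilin q).Nondegenerate)
    (hd : 5 ≤ finrank F W) (φ : W ≃+ W) (σ : F ≃+* F)
    (hs : ∀ (a : F) (w : W), φ (a • w) = σ a • φ w) (h1 : ∀ w, q w = 0 ↔ q (φ w) = 0) :
    ∃ c : F, c ≠ 0 ∧ ∀ w, q (φ w) = c * σ (q w) := by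
  have hB : ∀ s t : W, q s = 0 → q t = 0 → polar q s t = 0 → polar q (φ s) (φ t) = 0 := by
    intro s t hs0 ht0 hst
    have e : q (s + t) = 0 := by rw [q_add', hs0, ht0, hst]; simp
    have e2 := (h1 _).1 e
    rw [map_add, q_add', (h1 s).1 hs0, (h1 t).1 ht0] at e2
    simpa using e2
  obtain ⟨u, -, u', -, hu, hu', huu'⟩ := exists_hyp_pair_mem q hq ⊤ (by rw [finrank_top]; omega)
  obtain ⟨u₁, hu₁0, hu₁, huu₁, hu'u₁⟩ := exists_sing_perp2 q hd u u'
  -- a partner of `u₁` orthogonal to `u, u'`
  obtain ⟨u₁', hmem, hu₁', h11⟩ : ∃ f ∈ LinearMap.ker (polarBilin q u) ⊓ LinearMap.ker (polarBilin q u'),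
      q f = 0 ∧ polar q u₁ f = 1 := by
    have : ∃ t, polar q u₁ t ≠ 0 := by
      by_contra hcon
      push Not at hcon
      exact hu₁0 (hq.1 u₁ (fun t => hcon t))
    obtain ⟨t, ht⟩ := this
    obtain ⟨p1, p2⟩ := polar_hproj q hu hu' huu' t
    refine exists_hyp_partner q _ (e := u₁) (f₀ := hproj q u u' t) ?_ ?_ hu₁ ?_
    · simp only [Submodule.mem_inf, LinearMap.mem_ker, polarBilin_apply_apply]
      exact ⟨huu₁, hu'u₁⟩
    · simp only [Submodule.mem_inf, LinearMap.mem_ker, polarBilin_apply_apply]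
      exact ⟨p1, p2⟩
    · unfold hproj
      rw [polar_sub_right, polar_sub_right, polar_smul_right, polar_smul_right, polar_comm q u₁ u,
        huu₁, polar_comm q u₁ u', hu'u₁]
      simpa using ht
  simp only [Submodule.mem_inf, LinearMap.mem_ker, polarBilin_apply_apply] at hmem
  obtain ⟨huu₁', hu'u₁'⟩ := hmem
  -- orthogonality is preserved
  have hperp : ∀ (v : W), q v = 0 → polar q v u₁ = 0 → polar q v u₁' = 0 → ∀ x, polar q v x = 0 →
      polar q (φ v) (φ x) = 0 := by
    intro v hv hv1 hv1' x hx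
    obtain ⟨s, a, b, hs0, rfl⟩ := exists_three_sing q hu₁ hu₁' h11 x
    have hvs : polar q v s = 0 := by
      rw [polar_add_right, polar_add_right, polar_smul_right, polar_smul_right, hv1, hv1'] at hx
      simpa using hx
    rw [map_add, map_add, hs, hs, polar_add_right, polar_add_right, polar_smul_right,
      polar_smul_right, hB v s hv hs0 hvs, hB v u₁ hv hu₁ hv1, hB v u₁' hv hu₁' hv1']
    simp
  have hφu := (h1 u).1 hu
  have hφu' := (h1 u').1 hu'
  have key : ∀ x, polar q u x = 0 → polar q u' x = 0 →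
      q (φ x) = polar q (φ u) (φ u') * σ (q x) := by
    intro x hx hx'
    have e := (h1 _).1 (q_sing q hu hu' huu' hx hx')
    have e2 : φ (x - q x • u + u') = φ x + (-σ (q x)) • φ u + (1 : F) • φ u' := by
      rw [map_add, map_sub, hs, one_smul, neg_smul, sub_eq_add_neg]
    rw [e2, q_hyp_expand q hφu hφu' (hperp u hu huu₁ huu₁' x hx) (hperp u' hu' hu'u₁ hu'u₁' x hx')] at e
    linear_combination e
  have hall : ∀ w, q (φ w) = polar q (φ u) (φ u') * σ (q w) := by
    intro w
    obtain ⟨p1, p2⟩ := polar_hproj q hu hu' huu' w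
    have ew : w = hproj q u u' w + polar q w u' • u + polar q w u • u' := by
      unfold hproj; module
    have e3 : q w = q (hproj q u u' w) + polar q w u' * polar q w u := by
      conv_lhs => rw [ew]
      rw [q_hyp_expand q hu hu' p1 p2, huu', mul_one]
    have e4 : φ w = φ (hproj q u u' w) + σ (polar q w u') • φ u + σ (polar q w u) • φ u' := by
      conv_lhs => rw [ew]
      rw [map_add, map_add, hs, hs]
    rw [e4, q_hyp_expand q hφu hφu' (hperp u hu huu₁ huu₁' _ p1) (hperp u' hu' hu'u₁ hu'u₁' _ p2),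
      key _ p1 p2, e3, map_add, map_mul]
    ring
  refine ⟨polar q (φ u) (φ u'), ?_, hall⟩
  intro hc0
  have e5 : q (u + u') = 1 := by rw [q_add', hu, hu', huu']; simp
  have e6 := hall (u + u')
  rw [hc0, zero_mul] at e6
  have := (h1 _).2 e6
  rw [e5] at this
  exact one_ne_zero this

end Cfsg.Agent.Lib.Helper92
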