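import Mathlib
import Cfsg.Agent.Lib.Helper92.Basic

set_option autoImplicit false

namespace Cfsg.Agent.Lib.Helper92

variable {G : Type*} [Group G]

theorem dih_conj_pow {u v : G} (hu : u * u = 1) (hv : v * v = 1) (k : ℕ) :
    u * (u * v) ^ k * u⁻¹ = ((u * v) ^ k)⁻¹ := by
  have huinv : u⁻¹ = u := inv_eq_of_mul_eq_one_left hu
  have hvinv : v⁻¹ = v := inv_eq_of_mul_eq_one_left hv
  rw [← conj_pow, ← inv_pow]
  congr 1
  rw [mul_inv_rev, huinv, hvinv]
  calc u * (u * v) * u = (u * u) * v * u := by group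
    _ = v * u := by rw [hu, one_mul]

theorem dih_isConj_even {u v : G} (hu : u * u = 1) (hv : v * v = 1) (k : ℕ) :
    IsConj u (u * (u * v) ^ (2 * k)) := by
  rw [isConj_iff]
  refine ⟨((u * v) ^ k)⁻¹, ?_⟩
  have h := dih_conj_pow hu hv k
  have h2 : ((u * v) ^ k)⁻¹ * u = u * (u * v) ^ k := by
    rw [← h]; group
  rw [h2, inv_inv, two_mul, pow_add]; group

theorem dih_isConj_odd {u v : G} (hu : u * u = 1) (hv : v * v = 1) (k : ℕ) :
    IsConj v (u * (u * v) ^ (2 * k + 1)) := by
  rw [isConj_iff]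
  refine ⟨((u * v) ^ k)⁻¹, ?_⟩
  have h := dih_conj_pow hu hv k
  have h2 : ((u * v) ^ k)⁻¹ * u = u * (u * v) ^ k := by
    rw [← h]; group
  have h3 : v = u * (u * v) := by
    calc v = (u * u) * v := by rw [hu, one_mul]
      _ = u * (u * v) := by group
  calc ((u * v) ^ k)⁻¹ * v * ((u * v) ^ k)⁻¹⁻¹
      = ((u * v) ^ k)⁻¹ * (u * (u * v)) * (u * v) ^ k := by rw [inv_inv, ← h3]
    _ = (((u * v) ^ k)⁻¹ * u) * (u * v) * (u * v) ^ k := by group
    _ = (u * (u * v) ^ k) * (u * v) * (u * v) ^ k := by rw [h2]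
    _ = u * (u * v) ^ (2 * k + 1) := by
      generalize u * v = r
      group

/-- Two involutions are conjugate, or some involution `w` in the group they generate commutes
with both, `u * w` being conjugate to `u` or to `v`. -/
theorem dihedral_conj_or_central {u v : G} (hu : u * u = 1) (hv : v * v = 1)
    (hfin : 0 < orderOf (u * v)) :
    IsConj u v ∨ ∃ w, w ≠ 1 ∧ w * w = 1 ∧ w * u = u * w ∧ w * v = v * w ∧
      (IsConj u (u * w) ∨ IsConj v (u * w)) ∧ w ∈ Subgroup.zpowers (u * v) := by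
  rcases Nat.even_or_odd' (orderOf (u * v)) with ⟨m, hm | hm⟩
  · right
    have hm0 : 0 < m := by omega
    have hw1 : (u * v) ^ m ≠ 1 := pow_ne_one_of_lt_orderOf (by omega) (by omega)
    have hww : (u * v) ^ m * (u * v) ^ m = 1 := by
      rw [← pow_add, ← two_mul, ← hm, pow_orderOf_eq_one]
    have hwinv : ((u * v) ^ m)⁻¹ = (u * v) ^ m := inv_eq_of_mul_eq_one_left hww
    have hwu : (u * v) ^ m * u = u * (u * v) ^ m := by
      have h := dih_conj_pow hu hv m
      rw [hwinv] at h
      calc (u * v) ^ m * u = (u * (u * v) ^ m * u⁻¹) * u := by rw [h]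
        _ = u * (u * v) ^ m := by group
    have hv' : v = u * (u * v) := by
      calc v = (u * u) * v := by rw [hu, one_mul]
        _ = u * (u * v) := by group
    have hwr : (u * v) ^ m * (u * v) = (u * v) * (u * v) ^ m := (Commute.pow_self (u * v) m).eq
    refine ⟨(u * v) ^ m, hw1, hww, hwu, ?_, ?_, Subgroup.npow_mem_zpowers _ _⟩
    · calc (u * v) ^ m * v = (u * v) ^ m * (u * (u * v)) := by rw [← hv']
        _ = ((u * v) ^ m * u) * (u * v) := by rw [mul_assoc ((u * v) ^ m)]
        _ = u * ((u * v) ^ m * (u * v)) := by rw [hwu, mul_assoc]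
        _ = u * ((u * v) * (u * v) ^ m) := by rw [hwr]
        _ = (u * (u * v)) * (u * v) ^ m := (mul_assoc u (u * v) ((u * v) ^ m)).symm
        _ = v * (u * v) ^ m := by rw [← hv']
    · rcases Nat.even_or_odd' m with ⟨j, hj | hj⟩
      · left; rw [hj]; exact dih_isConj_even hu hv j
      · right; rw [hj]; exact dih_isConj_odd hu hv j
  · left
    have h := dih_isConj_odd hu hv m
    rw [← hm, pow_orderOf_eq_one, mul_one] at h
    exact h.symm

end Cfsg.Agent.Lib.Helper92
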