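import Mathlib
import Cfsg.Agent.Lib.Helper92.ES2Rank

set_option autoImplicit false

namespace Cfsg.Agent.Lib.Helper92

open Cfsg.Agent.Lib.Helper3
open scoped commutatorElement

section

variable {E : Type*} [Group E] {z : E}

theorem ES2.mul_eq_of_not_commute (h : ES2 E z) {x y : E} (hxy : ¬ Commute x y) :
    x * y = z * (y * x) := by
  have h1 := h.comm_eq hxy
  rw [commutatorElement_def] at h1
  calc x * y = (x * y * x⁻¹ * y⁻¹) * (y * x) := by group
    _ = z * (y * x) := by rw [h1]

theorem ES2.z_mul_z (h : ES2 E z) : z * z = 1 := by rw [← pow_two]; exact h.zz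

theorem ES2.commute_mul_left_iff (h : ES2 E z) (a b c : E) :
    Commute (a * b) c ↔ (Commute a c ↔ Commute b c) := by
  by_cases ha : Commute a c <;> by_cases hb : Commute b c
  · simp only [ha, hb, iff_true]; exact ha.mul_left hb
  · simp only [ha, hb, iff_false, not_true_eq_false]
    intro hab
    apply hb
    have : b = a⁻¹ * (a * b) := by group
    rw [this]
    exact ha.inv_left.mul_left hab
  · simp only [ha, hb, iff_true, iff_false]
    intro hab
    apply ha
    have : a = (a * b) * b⁻¹ := by group
    rw [this]
    exact hab.mul_left hb.inv_left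
  · simp only [ha, hb, iff_true]
    have e1 := h.mul_eq_of_not_commute ha
    have e2 := h.mul_eq_of_not_commute hb
    show a * b * c = c * (a * b)
    calc a * b * c = a * (b * c) := by group
      _ = a * (z * (c * b)) := by rw [e2]
      _ = z * (a * c) * b := by rw [← mul_assoc a z, h.comm_z a]; group
      _ = z * (z * (c * a)) * b := by rw [e1]
      _ = (z * z) * (c * (a * b)) := by group
      _ = c * (a * b) := by rw [h.z_mul_z, one_mul]

theorem ES2.commute_mul_right_iff (h : ES2 E z) (a b c : E) :
    Commute c (a * b) ↔ (Commute c a ↔ Commute c b) := by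
  rw [Commute.symm_iff (a := c), Commute.symm_iff (a := c), Commute.symm_iff (a := c)]
  exact h.commute_mul_left_iff a b c

theorem ES2.conj_eq (h : ES2 E z) (p x : E) : p * x * p⁻¹ = x ∨ p * x * p⁻¹ = z * x := by
  by_cases hpx : Commute p x
  · left; rw [hpx.eq]; group
  · right; rw [h.mul_eq_of_not_commute hpx]; group

open Classical in
/-- The lift to `E` of the orthogonal reflection in the nonsingular vector `c Z(E)`. -/
noncomputable def ES2.reflHom (h : ES2 E z) {c : E} (hc : c ^ 2 = z) : E →* E :=
  MonoidHom.mk' (fun u => if Commute u c then u else u * c) (by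
    intro u v
    have hcc : c * c = z := by rw [← pow_two]; exact hc
    by_cases hu : Commute u c <;> by_cases hv : Commute v c
    · have huv : Commute (u * v) c := (h.commute_mul_left_iff u v c).2 (by simp [hu, hv])
      simp only [hu, hv, huv, if_true]
    · have huv : ¬ Commute (u * v) c := by rw [h.commute_mul_left_iff u v c]; simp [hu, hv]
      simp only [hu, hv, huv, if_true, if_false, mul_assoc]
    · have huv : ¬ Commute (u * v) c := by rw [h.commute_mul_left_iff u v c]; simp [hu, hv]
      simp only [hu, hv, huv, if_true, if_false]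
      rw [mul_assoc, hv.eq, mul_assoc]
    · have huv : Commute (u * v) c := (h.commute_mul_left_iff u v c).2 (by simp [hu, hv])
      simp only [hu, hv, huv, if_true, if_false]
      have e2 := h.mul_eq_of_not_commute hv
      symm
      calc u * c * (v * c) = u * c * (z * (c * v)) := by rw [e2]
        _ = u * (c * z) * (c * v) := by group
        _ = u * (z * c) * (c * v) := by rw [h.comm_z c]
        _ = u * z * (c * c) * v := by group
        _ = u * (z * z) * v := by rw [hcc]; group
        _ = u * v := by rw [h.z_mul_z, mul_one])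

open Classical in
theorem ES2.reflHom_of_commute (h : ES2 E z) {c : E} (hc : c ^ 2 = z) {u : E}
    (hu : Commute u c) : h.reflHom hc u = u := by
  show (if Commute u c then u else u * c) = u
  rw [if_pos hu]

open Classical in
theorem ES2.reflHom_of_not_commute (h : ES2 E z) {c : E} (hc : c ^ 2 = z) {u : E}
    (hu : ¬ Commute u c) : h.reflHom hc u = u * c := by
  show (if Commute u c then u else u * c) = u * c
  rw [if_neg hu]

theorem ES2.reflHom_injective (h : ES2 E z) {c : E} (hc : c ^ 2 = z) :
    Function.Injective (h.reflHom hc) := by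
  rw [injective_iff_map_eq_one]
  intro u hu
  by_cases hcu : Commute u c
  · rwa [h.reflHom_of_commute hc hcu] at hu
  · exfalso
    rw [h.reflHom_of_not_commute hc hcu] at hu
    apply hcu
    have : u = c⁻¹ := eq_inv_of_mul_eq_one_left hu
    rw [this]
    exact (Commute.refl c).inv_left

/-- The reflection as an automorphism. -/
noncomputable def ES2.refl [Finite E] (h : ES2 E z) {c : E} (hc : c ^ 2 = z) : MulAut E :=
  MulEquiv.ofBijective (h.reflHom hc) (h.reflHom_injective hc).bijective_of_finite

theorem ES2.refl_of_commute [Finite E] (h : ES2 E z) {c : E} (hc : c ^ 2 = z) {u : E}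
    (hu : Commute u c) : h.refl hc u = u := h.reflHom_of_commute hc hu

theorem ES2.refl_of_not_commute [Finite E] (h : ES2 E z) {c : E} (hc : c ^ 2 = z) {u : E}
    (hu : ¬ Commute u c) : h.refl hc u = u * c := h.reflHom_of_not_commute hc hu

theorem ES2.refl_mul_self [Finite E] (h : ES2 E z) {c : E} (hc : c ^ 2 = z) :
    h.refl hc * h.refl hc = MulAut.conj c := by
  ext u
  rw [MulAut.mul_apply, MulAut.conj_apply]
  have hcc : c * c = z := by rw [← pow_two]; exact hc
  by_cases hu : Commute u c
  · rw [h.refl_of_commute hc hu, h.refl_of_commute hc hu, ← hu.eq]; group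
  · have hu' : ¬ Commute (u * c) c := by
      rw [h.commute_mul_left_iff]; simp [hu]
    rw [h.refl_of_not_commute hc hu, h.refl_of_not_commute hc hu', mul_assoc, hcc]
    have hcu : ¬ Commute c u := fun h1 => hu h1.symm
    rw [h.mul_eq_of_not_commute hcu, h.comm_z u]; group

theorem ES2.refl_comm [Finite E] (h : ES2 E z) {c c' : E} (hc : c ^ 2 = z) (hc' : c' ^ 2 = z)
    (hcc : Commute c c') : h.refl hc * h.refl hc' = h.refl hc' * h.refl hc := by
  ext u
  rw [MulAut.mul_apply, MulAut.mul_apply]
  by_cases hu : Commute u c <;> by_cases hu' : Commute u c'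
  · rw [h.refl_of_commute hc' hu', h.refl_of_commute hc hu, h.refl_of_commute hc' hu']
  · have h1 : Commute (u * c') c := (h.commute_mul_left_iff _ _ _).2 (by simp [hu, hcc.symm])
    rw [h.refl_of_not_commute hc' hu', h.refl_of_commute hc hu, h.refl_of_commute hc h1,
      h.refl_of_not_commute hc' hu']
  · have h1 : Commute (u * c) c' := (h.commute_mul_left_iff _ _ _).2 (by simp [hu', hcc])
    rw [h.refl_of_commute hc' hu', h.refl_of_not_commute hc hu, h.refl_of_commute hc' h1]
  · have h1 : ¬ Commute (u * c') c := by rw [h.commute_mul_left_iff]; simp [hu, hcc.symm]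
    have h2 : ¬ Commute (u * c) c' := by rw [h.commute_mul_left_iff]; simp [hu', hcc]
    rw [h.refl_of_not_commute hc' hu', h.refl_of_not_commute hc hu, h.refl_of_not_commute hc h1,
      h.refl_of_not_commute hc' h2, mul_assoc, mul_assoc, hcc.eq]

end

end Cfsg.Agent.Lib.Helper92
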