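import Mathlib
import Cfsg.Prelude.Def_KGroupFacts
import Cfsg.Agent.Lib.Helper92.ES2Refl

set_option autoImplicit false

namespace Cfsg.Agent.Lib.Helper92

open Cfsg.Agent.Lib.Helper3
open scoped commutatorElement

section

variable {E : Type*} [Group E] {z : E}

theorem aut_sq_aux (hzz : z * z = 1) (φ : MulAut E) (hφz : φ z = z) (hφφ : φ * φ = 1) {d γ : E}
    (hd : φ d = d * γ ∨ φ d = z * (d * γ)) : γ * φ γ = 1 := by
  have h1 : φ (φ d) = d := by
    have := congrArg (fun f : MulAut E => f d) hφφ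
    simpa using this
  rcases hd with hd | hd
  · rw [hd, map_mul, hd, mul_assoc] at h1
    exact mul_eq_left.1 h1
  · rw [hd, map_mul, map_mul, hφz, hd] at h1
    have h2 : z * (z * (d * γ) * φ γ) = (z * z) * (d * (γ * φ γ)) := by group
    rw [h2, hzz, one_mul] at h1
    exact mul_eq_left.1 h1

theorem aut_comm_aux (φ ψ : MulAut E) (hφz : φ z = z) (hψz : ψ z = z) (hc : φ * ψ = ψ * φ)
    {d γ γ' : E} (hd : φ d = d * γ ∨ φ d = z * (d * γ))
    (hd' : ψ d = d * γ' ∨ ψ d = z * (d * γ')) : γ * φ γ' = γ' * ψ γ := by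
  have h1 : φ (ψ d) = ψ (φ d) := by
    have := congrArg (fun f : MulAut E => f d) hc
    simpa using this
  rcases hd with hd | hd <;> rcases hd' with hd' | hd' <;>
    rw [hd, hd'] at h1 <;>
    simp only [map_mul, hφz, hψz, hd, hd', mul_assoc, mul_right_inj] at h1 <;> exact h1

theorem ES2.exists_pair4 (h : ES2 E z) (hna : ¬ ∀ x y : E, Commute x y) :
    ∃ g k : E, g ^ 2 = z ∧ ¬ Commute k g := by
  push Not at hna
  obtain ⟨x, y, hxy⟩ := hna
  rcases h.sq x with hx | hx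
  · rcases h.sq y with hy | hy
    · refine ⟨x * y, x, ?_, ?_⟩
      · rw [h.mul_sq, hx, hy, one_mul, one_mul]; exact h.comm_eq (fun h1 => hxy h1.symm)
      · rw [h.commute_mul_right_iff]; simp [hxy]
    · exact ⟨y, x, hy, hxy⟩
  · exact ⟨x, y, hx, fun h1 => hxy h1.symm⟩

theorem ES2.exists_triple [Finite E] (h : ES2 E z) {n : ℕ} (hn : 3 ≤ n)
    (hcard : Nat.card E = 2 ^ (2 * n + 1)) :
    ∃ c₁ c₂ c₃ d₁ d₂ d₃ : E, c₁ ^ 2 = z ∧ c₂ ^ 2 = z ∧ c₃ ^ 2 = z ∧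
      Commute c₁ c₂ ∧ Commute c₁ c₃ ∧ Commute c₂ c₃ ∧
      ¬ Commute d₁ c₁ ∧ Commute d₁ c₂ ∧ Commute d₁ c₃ ∧
      Commute d₂ c₁ ∧ ¬ Commute d₂ c₂ ∧ Commute d₂ c₃ ∧
      Commute d₃ c₁ ∧ Commute d₃ c₂ ∧ ¬ Commute d₃ c₃ := by
  have na : ∀ {K : Type _} [Group K] [Finite K] {w : K} (_ : ES2 K w) {m : ℕ} (_ : 1 ≤ m)
      (_ : Nat.card K = 2 ^ (2 * m + 1)), ¬ ∀ x y : K, Commute x y := by
    intro K _ _ w hK m hm hc hab
    have h1 := hK.card_of_abelian hab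
    rw [h1] at hc
    have h2 : 2 ^ 1 = 2 ^ (2 * m + 1) := by simpa using hc
    have := Nat.pow_right_injective (le_refl 2) h2
    omega
  obtain ⟨g₁, k₁, hg₁, hgk₁⟩ := h.exists_pair4 (na h (by omega) hcard)
  have hxy₁ : ¬ Commute g₁ k₁ := fun h1 => hgk₁ h1.symm
  obtain ⟨m₁, rfl, hK₁⟩ := card_ker_of_card h hxy₁ hcard
  have H₁ := h.ker hxy₁
  obtain ⟨g₂, k₂, hg₂, hgk₂⟩ := H₁.exists_pair4 (na H₁ (by omega) hK₁)
  have hxy₂ : ¬ Commute g₂ k₂ := fun h1 => hgk₂ h1.symm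
  obtain ⟨m₂, rfl, hK₂⟩ := card_ker_of_card H₁ hxy₂ hK₁
  have H₂ := H₁.ker hxy₂
  obtain ⟨g₃, k₃, hg₃, hgk₃⟩ := H₂.exists_pair4 (na H₂ (by omega) hK₂)
  have P1 : ∀ a : (commHom₂ h.hc g₁ k₁).ker, Commute g₁ (a : E) ∧ Commute k₁ (a : E) :=
    fun a => (mem_ker_commHom₂ h.hc g₁ k₁ a).1 a.2
  have P2 : ∀ b : (commHom₂ H₁.hc g₂ k₂).ker,
      Commute (g₂ : E) ((b : (commHom₂ h.hc g₁ k₁).ker) : E) ∧
      Commute (k₂ : E) ((b : (commHom₂ h.hc g₁ k₁).ker) : E) := by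
    intro b
    have := (mem_ker_commHom₂ H₁.hc g₂ k₂ b).1 b.2
    exact ⟨congrArg Subtype.val this.1.eq, congrArg Subtype.val this.2.eq⟩
  refine ⟨g₁, g₂, ((g₃ : (commHom₂ h.hc g₁ k₁).ker) : E), k₁, k₂,
    ((k₃ : (commHom₂ h.hc g₁ k₁).ker) : E), hg₁, congrArg Subtype.val hg₂,
    congrArg (fun t : (commHom₂ H₁.hc g₂ k₂).ker => ((t : (commHom₂ h.hc g₁ k₁).ker) : E)) hg₃,
    (P1 g₂).1, (P1 g₃).1, (P2 g₃).1, hgk₁, (P1 g₂).2, (P1 g₃).2, (P1 k₂).1.symm,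
    fun h1 => hgk₂ (Subtype.ext h1), (P2 g₃).2, (P1 k₃).1.symm, (P2 k₃).1.symm,
    fun h1 => hgk₃ (Subtype.ext (Subtype.ext h1))⟩

/-- **Griess**: three independent commuting elements of order four obstruct a complement to the
inner automorphisms. -/
theorem ES2.no_complement_aux [Finite E] (h : ES2 E z) {c₁ c₂ c₃ d₁ d₂ d₃ : E}
    (h1 : c₁ ^ 2 = z) (h2 : c₂ ^ 2 = z) (h3 : c₃ ^ 2 = z)
    (c12 : Commute c₁ c₂) (c13 : Commute c₁ c₃) (c23 : Commute c₂ c₃)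
    (d11 : ¬ Commute d₁ c₁) (d12 : Commute d₁ c₂) (d13 : Commute d₁ c₃)
    (d21 : Commute d₂ c₁) (d22 : ¬ Commute d₂ c₂) (d23 : Commute d₂ c₃)
    (d31 : Commute d₃ c₁) (d32 : Commute d₃ c₂) (d33 : ¬ Commute d₃ c₃)
    (L : Subgroup (MulAut E)) : ¬ (Cfsg.Inn E).IsComplement' L := by
  intro hL
  obtain ⟨c₄, hc4⟩ : ∃ c₄, c₄ = c₁ * c₂ * c₃ := ⟨_, rfl⟩
  have c41 : Commute c₄ c₁ := by
    rw [hc4]; exact ((Commute.refl c₁).mul_left c12.symm).mul_left c13.symm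
  have c42 : Commute c₄ c₂ := by
    rw [hc4]; exact (c12.mul_left (Commute.refl c₂)).mul_left c23.symm
  have c43 : Commute c₄ c₃ := by
    rw [hc4]; exact (c13.mul_left c23).mul_left (Commute.refl c₃)
  have h4 : c₄ ^ 2 = z := by
    rw [hc4, (c13.mul_left c23).mul_pow, c12.mul_pow, h1, h2, h3, h.z_mul_z, one_mul]
  have d14 : ¬ Commute d₁ c₄ := by
    rw [hc4, h.commute_mul_right_iff, h.commute_mul_right_iff]; simp [d11, d12, d13]
  have d24 : ¬ Commute d₂ c₄ := by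
    rw [hc4, h.commute_mul_right_iff, h.commute_mul_right_iff]; simp [d21, d22, d23]
  have d34 : ¬ Commute d₃ c₄ := by
    rw [hc4, h.commute_mul_right_iff, h.commute_mul_right_iff]; simp [d31, d32, d33]
  -- the quotient map to the outer automorphism group
  let q : MulAut E →* Cfsg.Out E := QuotientGroup.mk' (Cfsg.Inn E)
  have hq2 : ∀ {c : E} (hc : c ^ 2 = z), q (h.refl hc) * q (h.refl hc) = 1 := by
    intro c hc
    rw [← map_mul, h.refl_mul_self hc]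
    exact (QuotientGroup.eq_one_iff _).2 ⟨c, rfl⟩
  have hqc : ∀ {c c' : E} (hc : c ^ 2 = z) (hc' : c' ^ 2 = z), Commute c c' →
      Commute (q (h.refl hc)) (q (h.refl hc')) := by
    intro c c' hc hc' hcc
    show q (h.refl hc) * q (h.refl hc') = q (h.refl hc') * q (h.refl hc)
    rw [← map_mul, ← map_mul, h.refl_comm hc hc' hcc]
  have key : ∀ φ : MulAut E, ∃ l ∈ L, q l = q φ ∧ ∃ p : E, ∀ u, l u = p * φ u * p⁻¹ := by
    intro φ
    obtain ⟨⟨⟨i, hi⟩, ⟨l, hl⟩⟩, hx, -⟩ := Subgroup.isComplement_iff_existsUnique.1 hL φ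
    obtain ⟨p, rfl⟩ := hi
    have hx' : MulAut.conj p * l = φ := hx
    refine ⟨l, hl, ?_, p⁻¹, fun u => ?_⟩
    · rw [← hx', map_mul]
      have : q (MulAut.conj p) = 1 := (QuotientGroup.eq_one_iff _).2 ⟨p, rfl⟩
      rw [this, one_mul]
    · have : l = (MulAut.conj p)⁻¹ * φ := by rw [← hx']; group
      rw [this, MulAut.mul_apply, ← map_inv, MulAut.conj_apply]
  have triv : ∀ l ∈ L, q l = 1 → l = 1 := by
    intro l hl hql
    exact Subgroup.disjoint_def.1 hL.disjoint ((QuotientGroup.eq_one_iff _).1 hql) hl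
  obtain ⟨a, haL, hqa, p, hap⟩ := key (h.refl h1 * h.refl h2)
  obtain ⟨b, hbL, hqb, r, hbr⟩ := key (h.refl h1 * h.refl h3 * h.refl h4)
  rw [map_mul] at hqa
  rw [map_mul, map_mul] at hqb
  have haa : a * a = 1 := by
    apply triv _ (L.mul_mem haL haL)
    rw [map_mul, hqa, (hqc h2 h1 c12.symm).mul_mul_mul_comm, hq2, hq2, one_mul]
  have hbb : b * b = 1 := by
    apply triv _ (L.mul_mem hbL hbL)
    have hX : Commute (q (h.refl h4)) (q (h.refl h1) * q (h.refl h3)) :=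
      (hqc h4 h1 c41).mul_right (hqc h4 h3 c43)
    rw [map_mul, hqb, hX.mul_mul_mul_comm, (hqc h3 h1 c13.symm).mul_mul_mul_comm, hq2, hq2, hq2,
      one_mul, one_mul]
  have hab : a * b = b * a := by
    have hcomm : Commute (q a) (q b) := by
      rw [hqa, hqb]
      apply Commute.mul_left
      · exact ((Commute.refl _).mul_right (hqc h1 h3 c13)).mul_right (hqc h1 h4 c41.symm)
      · exact ((hqc h2 h1 c12.symm).mul_right (hqc h2 h3 c23)).mul_right (hqc h2 h4 c42.symm)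
    have h5 : a * b * (b * a)⁻¹ = 1 := by
      apply triv _ (L.mul_mem (L.mul_mem haL hbL) (L.inv_mem (L.mul_mem hbL haL)))
      rw [map_mul, map_inv, map_mul, map_mul, hcomm.eq, mul_inv_cancel]
    exact mul_inv_eq_one.1 h5
  have zcomm : ∀ c : E, Commute z c := fun c => (h.comm_z c).symm
  have haz : a z = z := by
    rw [hap, MulAut.mul_apply, h.refl_of_commute h2 (zcomm _), h.refl_of_commute h1 (zcomm _),
      h.comm_z p]
    group
  have hbz : b z = z := by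
    rw [hbr, MulAut.mul_apply, MulAut.mul_apply, h.refl_of_commute h4 (zcomm _),
      h.refl_of_commute h3 (zcomm _), h.refl_of_commute h1 (zcomm _), h.comm_z r]
    group
  -- values
  have a_d1 : a d₁ = d₁ * c₁ ∨ a d₁ = z * (d₁ * c₁) := by
    have : (h.refl h1 * h.refl h2) d₁ = d₁ * c₁ := by
      rw [MulAut.mul_apply, h.refl_of_commute h2 d12, h.refl_of_not_commute h1 d11]
    rw [hap, this]; exact h.conj_eq _ _
  have a_d2 : a d₂ = d₂ * c₂ ∨ a d₂ = z * (d₂ * c₂) := by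
    have : (h.refl h1 * h.refl h2) d₂ = d₂ * c₂ := by
      rw [MulAut.mul_apply, h.refl_of_not_commute h2 d22,
        h.refl_of_commute h1 (d21.mul_left c12.symm)]
    rw [hap, this]; exact h.conj_eq _ _
  have b_d1 : b d₁ = d₁ * (c₄ * c₁) ∨ b d₁ = z * (d₁ * (c₄ * c₁)) := by
    have : (h.refl h1 * h.refl h3 * h.refl h4) d₁ = d₁ * (c₄ * c₁) := by
      have n1 : ¬ Commute (d₁ * c₄) c₁ := by rw [h.commute_mul_left_iff]; simp [d11, c41]
      rw [MulAut.mul_apply, MulAut.mul_apply, h.refl_of_not_commute h4 d14,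
        h.refl_of_commute h3 (d13.mul_left c43), h.refl_of_not_commute h1 n1, mul_assoc]
    rw [hbr, this]; exact h.conj_eq _ _
  have b_d2 : b d₂ = d₂ * c₄ ∨ b d₂ = z * (d₂ * c₄) := by
    have : (h.refl h1 * h.refl h3 * h.refl h4) d₂ = d₂ * c₄ := by
      rw [MulAut.mul_apply, MulAut.mul_apply, h.refl_of_not_commute h4 d24,
        h.refl_of_commute h3 (d23.mul_left c43), h.refl_of_commute h1 (d21.mul_left c41)]
    rw [hbr, this]; exact h.conj_eq _ _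
  have b_d3 : b d₃ = d₃ * (c₄ * c₃) ∨ b d₃ = z * (d₃ * (c₄ * c₃)) := by
    have : (h.refl h1 * h.refl h3 * h.refl h4) d₃ = d₃ * (c₄ * c₃) := by
      have n1 : ¬ Commute (d₃ * c₄) c₃ := by rw [h.commute_mul_left_iff]; simp [d33, c43]
      rw [MulAut.mul_apply, MulAut.mul_apply, h.refl_of_not_commute h4 d34,
        h.refl_of_not_commute h3 n1,
        h.refl_of_commute h1 ((d31.mul_left c41).mul_left c13.symm), mul_assoc]
    rw [hbr, this]; exact h.conj_eq _ _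
  have e1 := aut_sq_aux h.z_mul_z a haz haa a_d1
  have e2 := aut_sq_aux h.z_mul_z b hbz hbb b_d2
  have e3 := aut_sq_aux h.z_mul_z b hbz hbb b_d1
  have e4 := aut_sq_aux h.z_mul_z b hbz hbb b_d3
  have e5 := aut_comm_aux a b haz hbz hab a_d2 b_d2
  have e6 := aut_comm_aux a b haz hbz hab a_d1 b_d1
  have b4 : b c₄ = c₄⁻¹ := eq_inv_of_mul_eq_one_right e2
  have a1 : a c₁ = c₁⁻¹ := eq_inv_of_mul_eq_one_right e1
  have b1 : b c₁ = c₁⁻¹ := by
    rw [map_mul, b4] at e3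
    have h5 : c₄ * c₁ * (c₄⁻¹ * b c₁) = c₁ * b c₁ := by rw [c41.eq]; group
    rw [h5] at e3
    exact eq_inv_of_mul_eq_one_right e3
  have b3 : b c₃ = c₃⁻¹ := by
    rw [map_mul, b4] at e4
    have h5 : c₄ * c₃ * (c₄⁻¹ * b c₃) = c₃ * b c₃ := by rw [c43.eq]; group
    rw [h5] at e4
    exact eq_inv_of_mul_eq_one_right e4
  have b2 : b c₂ = c₂⁻¹ := by
    have h5 : b c₄ = b c₁ * b c₂ * b c₃ := by rw [hc4, map_mul, map_mul]
    rw [b4, b1, b3] at h5
    have h6 : b c₂ = c₁ * c₄⁻¹ * c₃ := by rw [h5]; group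
    have h7 : c₄ = c₃ * c₂ * c₁ := by
      rw [hc4, (c13.symm.mul_left c12.symm).eq, c23.symm.eq, mul_assoc]
    rw [h6, h7]; group
  have a4 : a c₄ = c₄ := by
    rw [map_mul, a1, b1] at e6
    have h5 : a c₄ = c₁⁻¹ * (c₁ * (a c₄ * c₁⁻¹)) * c₁ := by group
    rw [h5, e6, c41.eq]; group
  rw [a4, b2, ← c42.eq] at e5
  have h8 : c₂ = c₂⁻¹ := mul_left_cancel e5
  apply h.z1
  rw [← h2, pow_two]
  nth_rewrite 2 [h8]
  exact mul_inv_cancel c₂

/-- **Griess**: for an extraspecial `2`-group of order `2^(2n+1)`, `n ≥ 3`, the inner automorphism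
group has no complement in the automorphism group. -/
theorem ES2.no_complement [Finite E] (h : ES2 E z) {n : ℕ} (hn : 3 ≤ n)
    (hcard : Nat.card E = 2 ^ (2 * n + 1)) (L : Subgroup (MulAut E)) :
    ¬ (Cfsg.Inn E).IsComplement' L := by
  obtain ⟨c₁, c₂, c₃, d₁, d₂, d₃, h1, h2, h3, c12, c13, c23, d11, d12, d13, d21, d22, d23, d31,
    d32, d33⟩ := h.exists_triple hn hcard
  exact h.no_complement_aux h1 h2 h3 c12 c13 c23 d11 d12 d13 d21 d22 d23 d31 d32 d33 L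

end

end Cfsg.Agent.Lib.Helper92
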