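import Mathlib
import Cfsg.Agent.Lib.Helper92.ESPair2
import Cfsg.Agent.Lib.Helper30.Coprime

set_option autoImplicit false

namespace Cfsg.Agent.Lib.Helper92

variable {G : Type*} [Group G] {Q A : Subgroup G} {z : G}

theorem eq_one_of_pow_two_pow {a : G} (hA : Odd (Nat.card A)) (ha : a ∈ A) {k : ℕ}
    (h : a ^ 2 ^ k = 1) : a = 1 := by
  have h1 : orderOf a ∣ 2 ^ k := orderOf_dvd_of_pow_eq_one h
  have h2 : orderOf a ∣ Nat.card A := by
    have := orderOf_dvd_natCard (⟨a, ha⟩ : A)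
    rwa [Subgroup.orderOf_mk] at this
  have hcop : Nat.Coprime (2 ^ k) (Nat.card A) :=
    Nat.Coprime.pow_left k (Nat.coprime_two_left.2 hA)
  exact orderOf_eq_one_iff.1 (Nat.eq_one_of_dvd_coprimes hcop h1 h2)

/-- The centre of `C_Q(A)` is `⟨z⟩` for a group `A ≤ C(z)` of odd order. -/
theorem ESData.center_CQA [Finite G] (h : ESData Q z) (hA : Odd (Nat.card A))
    (hAz : ∀ a ∈ A, Commute a z) {c : G} (hcQ : c ∈ Q) (hcA : ∀ a ∈ A, Commute a c)
    (hc : ∀ r ∈ Q, (∀ a ∈ A, Commute a r) → Commute r c) : c = 1 ∨ c = z := by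
  have : Fact (Nat.Prime 2) := ⟨Nat.prime_two⟩
  apply h.cent
  intro k hk
  have hAK : A ≤ Subgroup.normalizer (Q : Set G) :=
    le_normalizer_of_conj_mem (fun a ha x hx => h.norm a (hAz a ha) x hx)
  have hcop : (Nat.card A).Coprime (Nat.card Q) := by
    obtain ⟨n, hn⟩ := IsPGroup.iff_card.1 h.two
    rw [hn]
    exact (Nat.Coprime.pow_left n (Nat.coprime_two_left.2 hA)).symm
  have hsolv : Group.IsSolvable A ∨ Group.IsSolvable Q := by
    right
    have := h.two.isNilpotent
    infer_instance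
  have hNA : A ≤ Subgroup.normalizer ((Q ⊓ Subgroup.centralizer {c} : Subgroup G) : Set G) := by
    apply le_normalizer_of_conj_mem
    intro a ha x hx
    rw [Subgroup.mem_inf, Subgroup.mem_centralizer_singleton_iff] at hx ⊢
    refine ⟨h.norm a (hAz a ha) x hx.1, ?_⟩
    have hxc : Commute x c := hx.2
    exact (((hcA a ha).mul_left hxc).mul_left (hcA a ha).inv_left).eq
  have hfix : ∀ a ∈ A, k⁻¹ * a * k * a⁻¹ ∈ Q ⊓ Subgroup.centralizer {c} := by
    intro a ha
    rw [Subgroup.mem_inf, Subgroup.mem_centralizer_singleton_iff]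
    constructor
    · have e : k⁻¹ * a * k * a⁻¹ = k⁻¹ * (a * k * a⁻¹) := by group
      rw [e]
      exact Q.mul_mem (Q.inv_mem hk) (h.norm a (hAz a ha) k hk)
    · have hac := hcA a ha
      rcases h.conj_cases hk hcQ with h1 | h1
      · have hkc : Commute k c := commute_of_conj_eq h1
        exact (((hkc.inv_left.mul_left hac).mul_left hkc).mul_left hac.inv_left).eq
      · apply (commute_of_conj_eq _).eq
        have e1 : a⁻¹ * c * a = c := by
          have := conj_eq_of_commute hac.inv_left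
          rwa [inv_inv] at this
        have e2 : a * (z * c) * a⁻¹ = z * c := conj_eq_of_commute ((hAz a ha).mul_right hac)
        calc k⁻¹ * a * k * a⁻¹ * c * (k⁻¹ * a * k * a⁻¹)⁻¹
            = k⁻¹ * (a * (k * (a⁻¹ * c * a) * k⁻¹) * a⁻¹) * k := by group
          _ = c := by rw [e1, h1, e2, h.rel_back h1]
  obtain ⟨n, hn, hkn⟩ := Cfsg.Agent.Lib.Helper30.exists_mem_centralizer_of_coset hAK hcop hsolv
    inf_le_left hNA hk hfix
  rw [Subgroup.mem_inf, Subgroup.mem_centralizer_singleton_iff] at hn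
  have h1 : Commute (k * n) c := by
    apply hc _ (Q.mul_mem hk hn.1)
    intro a ha
    exact (Subgroup.mem_centralizer_iff.1 hkn) a ha
  have h2 : Commute n c := hn.2
  have h3 := h1.mul_left h2.inv_left
  rwa [mul_inv_cancel_right] at h3

/-- An element of `C_Q(A)` moving a given non-central `s ∈ C_Q(A)`. -/
theorem ESData.exists_q_CQA [Finite G] (h : ESData Q z) (hA : Odd (Nat.card A))
    (hAz : ∀ a ∈ A, Commute a z) {s : G} (hsQ : s ∈ Q) (hsA : ∀ a ∈ A, Commute a s) (hs1 : s ≠ 1)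
    (hsz : s ≠ z) : ∃ q ∈ Q, (∀ a ∈ A, Commute a q) ∧ q * s * q⁻¹ = z * s := by
  by_contra hcon
  push Not at hcon
  have hc : ∀ r ∈ Q, (∀ a ∈ A, Commute a r) → Commute r s := by
    intro r hr hrA
    rcases h.conj_cases hr hsQ with h1 | h1
    · exact commute_of_conj_eq h1
    · exact absurd h1 (hcon r hr hrA)
  rcases h.center_CQA hA hAz hsQ hsA hc with h1 | h1
  · exact hs1 h1
  · exact hsz h1

end Cfsg.Agent.Lib.Helper92
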