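import Mathlib
import Cfsg.Agent.Lib.Helper92.ESPair2
import Cfsg.Agent.S5422

set_option autoImplicit false

namespace Cfsg.Agent.Lib.Helper92

variable {G : Type*} [Group G]

theorem PairData.of_large [Finite G] (Q : Subgroup G) (hQ : Cfsg.IsLargeExtraspecial Q) (z : G)
    (hz : ((Subgroup.center ↥Q).map Q.subtype) = Subgroup.zpowers z) (hz2 : orderOf z = 2) (w : ℕ)
    (hw : 2 ≤ w) (hcard : Nat.card ↥Q = 2 ^ (2 * w + 1)) (g : G)
    (hgH : g ∉ Subgroup.centralizer ({z} : Set G)) (hgQ : g * z * g⁻¹ ∈ Q) :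
    PairData Q (Q.map (MulAut.conj g).toMonoidHom) z (g * z * g⁻¹) := by
  obtain ⟨hL1, hL2, hL3, -⟩ := hQ
  have hzZ : z ∈ ZZ Q := by
    show z ∈ (Subgroup.center ↥Q).map Q.subtype
    rw [hz]; exact Subgroup.mem_zpowers z
  have hz1 : z ≠ 1 := by
    intro h
    rw [h, orderOf_one] at hz2
    omega
  have hzall : ∀ x ∈ ZZ Q, x = 1 ∨ x = z := by
    intro x hx
    apply mem_zpowers_of_orderOf_two hz2
    rw [← hz]; exact hx
  have h := ESData.of hL1 hL2 hL3 hzZ hz1 hz2 hzall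
  have hne : g * z * g⁻¹ ≠ z := by
    intro he
    apply hgH
    rw [Subgroup.mem_centralizer_singleton_iff]
    exact (commute_of_conj_eq he).eq
  have hgN : g ∉ Subgroup.normalizer (((Subgroup.center ↥Q).map Q.subtype) : Set G) := by
    intro hg
    have h1 : g * z * g⁻¹ ∈ ZZ Q := (Subgroup.mem_normalizer_iff.1 hg z).1 hzZ
    rcases hzall _ h1 with h2 | h2
    · exact (h.conj g).z1 h2
    · exact hne h2
  have hZg : (((Subgroup.center ↥Q).map Q.subtype)).map (MulAut.conj g).toMonoidHom ≤ Q := by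
    rintro _ ⟨x, hx, rfl⟩
    rcases hzall x hx with rfl | rfl
    · simp
    · exact hgQ
  have hzP := (Cfsg.Agent.S5422.result Q hL1 hL2 hL3 w hw hcard g hgN hZg).1 hzZ
  exact PairData.of hL1 h hzall hgQ hne hzP

end Cfsg.Agent.Lib.Helper92
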