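import Mathlib
import Cfsg.Agent.Lib.Helper92.ESPair

set_option autoImplicit false

namespace Cfsg.Agent.Lib.Helper92

variable {G : Type*} [Group G]

theorem commute_of_comm_eq_one {a b : G} (h : a * b * a⁻¹ * b⁻¹ = 1) : Commute a b := by
  apply commute_of_conj_eq
  calc a * b * a⁻¹ = (a * b * a⁻¹ * b⁻¹) * b := by group
    _ = b := by rw [h, one_mul]

theorem comm_eq_one_of_commute {a b : G} (h : Commute a b) : a * b * a⁻¹ * b⁻¹ = 1 := by
  rw [conj_eq_of_commute h, mul_inv_cancel]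

/-- Elementwise data for the image of `P` in the section `M / A`. -/
theorem ESData.quot {M A P : Subgroup G} [hn : (A.subgroupOf M).Normal] {z : G} (hPM : P ≤ M)
    (hzP : z ∈ P) (z1 : z ∉ A) (zz : z * z ∈ A) (zc : ∀ a ∈ P, a * z * a⁻¹ * z⁻¹ ∈ A)
    (comm : ∀ a ∈ P, ∀ b ∈ P, a * b * a⁻¹ * b⁻¹ ∈ A ∨ a * b * a⁻¹ * b⁻¹ * z⁻¹ ∈ A)
    (cent : ∀ c ∈ M, (∀ a ∈ P, a * c * a⁻¹ * c⁻¹ ∈ A) → c ∈ A ∨ c * z⁻¹ ∈ A)
    (norm : ∀ c ∈ M, c * z * c⁻¹ * z⁻¹ ∈ A → ∀ a ∈ P, ∃ a' ∈ P, c * a * c⁻¹ * a'⁻¹ ∈ A)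
    (two : IsPGroup 2 P) :
    ESData ((P.subgroupOf M).map (QuotientGroup.mk' (A.subgroupOf M)))
      (QuotientGroup.mk' (A.subgroupOf M) ⟨z, hPM hzP⟩) := by
  have key : ∀ x : M, QuotientGroup.mk' (A.subgroupOf M) x = 1 ↔ (x : G) ∈ A := by
    intro x
    rw [QuotientGroup.mk'_apply, QuotientGroup.eq_one_iff, Subgroup.mem_subgroupOf]
  have keyeq : ∀ x y : M, (x : G) * (y : G)⁻¹ ∈ A →
      QuotientGroup.mk' (A.subgroupOf M) x = QuotientGroup.mk' (A.subgroupOf M) y := by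
    intro x y hxy
    have h1 : QuotientGroup.mk' (A.subgroupOf M) (x * y⁻¹) = 1 := (key _).2 hxy
    rw [map_mul, map_inv] at h1
    exact mul_inv_eq_one.1 h1
  have hmem : ∀ a (ha : a ∈ P), QuotientGroup.mk' (A.subgroupOf M) ⟨a, hPM ha⟩ ∈
      (P.subgroupOf M).map (QuotientGroup.mk' (A.subgroupOf M)) := fun a ha =>
    ⟨⟨a, hPM ha⟩, by rw [SetLike.mem_coe, Subgroup.mem_subgroupOf]; exact ha, rfl⟩
  refine ⟨hmem z hzP, ?_, ?_, ?_, ?_, ?_, ?_, ?_⟩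
  · intro h
    exact z1 ((key _).1 h)
  · rw [← map_mul]
    exact (key _).2 zz
  · rintro _ ⟨a, ha, rfl⟩
    apply commute_of_comm_eq_one
    rw [← map_inv, ← map_inv, ← map_mul, ← map_mul, ← map_mul]
    exact (key _).2 (zc a ha)
  · rintro _ ⟨a, ha, rfl⟩ _ ⟨b, hb, rfl⟩
    rw [← map_inv, ← map_inv, ← map_mul, ← map_mul, ← map_mul]
    rcases comm a ha b hb with h | h
    · left; exact (key _).2 h
    · right; exact keyeq _ _ h
  · intro c hc
    obtain ⟨c, rfl⟩ := QuotientGroup.mk'_surjective _ c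
    have h1 : ∀ a ∈ P, a * c * a⁻¹ * (c : G)⁻¹ ∈ A := by
      intro a ha
      have h2 := comm_eq_one_of_commute (hc _ (hmem a ha))
      rw [← map_inv, ← map_inv, ← map_mul, ← map_mul, ← map_mul] at h2
      exact (key _).1 h2
    rcases cent c c.2 h1 with h | h
    · left; exact (key _).2 h
    · right; exact keyeq _ _ h
  · intro c hc
    obtain ⟨c, rfl⟩ := QuotientGroup.mk'_surjective _ c
    rintro _ ⟨a, ha, rfl⟩
    have h2 := comm_eq_one_of_commute hc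
    rw [← map_inv, ← map_inv, ← map_mul, ← map_mul, ← map_mul] at h2
    obtain ⟨a', ha', h3⟩ := norm c c.2 ((key _).1 h2) a ha
    rw [← map_inv, ← map_mul, ← map_mul, keyeq (c * a * c⁻¹) ⟨a', hPM ha'⟩ h3]
    exact hmem a' ha'
  · exact (two.comap_subtype).map _

end Cfsg.Agent.Lib.Helper92
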