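import Mathlib
import Cfsg.Prelude
import Cfsg.Agent.Lib.Helper92.ESPair2
import Cfsg.Agent.Lib.Helper92.SylowConj
import Cfsg.Agent.Lib.Helper12.MinNormal
import Cfsg.Agent.Lib.Helper11.TwoComplement
import Cfsg.Agent.Lib.Helper27.Components
import Cfsg.Agent.Lib.Helper28.Layer
import Cfsg.Agent.Lib.Helper28.BigSub
import Cfsg.Agent.Lib.Helper28.Conj

set_option autoImplicit false

namespace Cfsg.Agent.Lib.Helper92

variable {G : Type*} [Group G]

theorem ESData.of_large [Finite G] {Q : Subgroup G} (hQ : Cfsg.IsLargeExtraspecial Q) {z : G}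
    (hz : ((Subgroup.center ↥Q).map Q.subtype) = Subgroup.zpowers z) :
    ESData Q z ∧ (∀ a ∈ Q, a * a = 1 ∨ a * a = z) := by
  have hcard := card_ZZ hQ.1
  have hord : orderOf z = 2 := by
    rw [← Nat.card_zpowers, ← hz]; exact hcard
  have hzZ : z ∈ ZZ Q := by
    change z ∈ (Subgroup.center ↥Q).map Q.subtype
    rw [hz]; exact Subgroup.mem_zpowers z
  have hz1 : z ≠ 1 := by
    intro h
    rw [h, orderOf_one] at hord
    omega
  have hzall : ∀ x ∈ ZZ Q, x = 1 ∨ x = z := fun x hx =>
    mem_zpowers_of_orderOf_two hord (by rw [← hz]; exact hx)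
  exact ⟨ESData.of hQ.1 hQ.2.1 hQ.2.2.1 hzZ hz1 hord hzall, fun a ha => hzall _ (sq_mem_ZZ hQ.1 ha)⟩

/-- a nontrivial 2-subgroup normalized by `Q` contains `z` -/
theorem ESData.z_mem_of_two_group [Finite G] {Q : Subgroup G} {z : G} (h : ESData Q z)
    (N : Subgroup G) (hN : IsPGroup 2 N) (hne : N ≠ ⊥)
    (hnorm : Q ≤ Subgroup.normalizer (N : Set G)) : z ∈ N := by
  have : Fact (Nat.Prime 2) := ⟨Nat.prime_two⟩
  have hP : IsPGroup 2 (Q ⊔ N : Subgroup G) := h.two.to_sup_of_normal_right' hN hnorm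
  have h1 := Helper12.inf_centralizer_ne_bot (Q ⊔ N) hP N le_sup_right
    (sup_le hnorm Subgroup.le_normalizer) hne
  obtain ⟨⟨x, hx⟩, hx1⟩ := Subgroup.ne_bot_iff_exists_ne_one.1 h1
  have hx1' : x ≠ 1 := fun e => hx1 (Subtype.ext e)
  have hc : ∀ a ∈ Q, Commute a x := by
    intro a ha
    exact (Subgroup.mem_centralizer_iff.1 hx.2) a (Subgroup.mem_sup_left ha)
  rcases h.cent x hc with e | e
  · exact absurd e hx1'
  · rw [← e]; exact hx.1

/-- no component of `G` centralizes `z` -/
theorem ESData.no_comp [Finite G] {Q : Subgroup G} {z : G} (h : ESData Q z) {K : Subgroup G}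
    (hK : Cfsg.IsComponent K) (hKz : ∀ k ∈ K, Commute k z) : False := by
  have : Fact (Nat.Prime 2) := ⟨Nat.prime_two⟩
  have hn : K ≤ Subgroup.normalizer (Q : Set G) :=
    le_normalizer_of_conj_mem (fun k hk a ha => h.norm k (hKz k hk) a ha)
  have hs : Group.IsSolvable ↥Q := by
    have := h.two.isNilpotent
    infer_instance
  have h1 := Helper27.comp_comm_solvable hK hs hn
  have h2 : ∀ k ∈ K, k = 1 ∨ k = z := by
    intro k hk
    apply h.cent
    intro a ha
    exact (Helper28.commute_of_commutator_eq_bot h1 hk ha).symm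
  apply Helper28.IsQuasisimple.not_isSolvable hK.2
  have hcomm : ∀ a b : K, a * b = b * a := by
    intro a b
    apply Subtype.ext
    change (a : G) * b = b * a
    rcases h2 a a.2 with e | e <;> rcases h2 b b.2 with e' | e' <;> rw [e, e'] <;> simp
  have : IsMulCommutative ↥K := ⟨⟨hcomm⟩⟩
  have := Helper28.isNilpotent_of_isMulCommutative (H := ↥K)
  infer_instance

/-- a nonabelian finite simple group has no involution `t` with `C(t) = ⟨t⟩` -/
theorem false_of_selfcentralizing_involution {L : Type*} [Group L] [Finite L] [hs : IsSimpleGroup L]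
    (hna : ¬ IsMulCommutative L) (t : L) (ht1 : t ≠ 1) (htt : t * t = 1)
    (hC : ∀ c : L, Commute c t → c = 1 ∨ c = t) : False := by
  have : Fact (Nat.Prime 2) := ⟨Nat.prime_two⟩
  have hord : orderOf t = 2 := orderOf_eq_prime (by rw [sq]; exact htt) ht1
  have hp : IsPGroup 2 (Subgroup.zpowers t) :=
    isPGroup_zpowers_of_orderOf (p := 2) (k := 1) (by rw [hord]; rfl)
  obtain ⟨S, hS⟩ := hp.exists_le_sylow
  have htS : t ∈ (S : Subgroup L) := hS (Subgroup.mem_zpowers t)
  have hnt : Nontrivial (S : Subgroup L) := ⟨⟨⟨t, htS⟩, 1, fun e => ht1 (congrArg Subtype.val e)⟩⟩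
  have := S.2.center_nontrivial
  obtain ⟨c, hc1⟩ := exists_ne (1 : Subgroup.center (S : Subgroup L))
  have hct : ((c : (S : Subgroup L)) : L) = t := by
    have h1 := Subgroup.mem_center_iff.1 c.2 ⟨t, htS⟩
    have h2 : Commute ((c : (S : Subgroup L)) : L) t := (congrArg Subtype.val h1).symm
    rcases hC _ h2 with e | e
    · exact absurd (Subtype.ext (Subtype.ext e)) hc1
    · exact e
  have hSall : ∀ s ∈ (S : Subgroup L), s = 1 ∨ s = t := by
    intro s hs'
    apply hC
    have h1 := Subgroup.mem_center_iff.1 c.2 ⟨s, hs'⟩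
    have h2 := congrArg Subtype.val h1
    change s * ((c : (S : Subgroup L)) : L) = ((c : (S : Subgroup L)) : L) * s at h2
    rw [hct] at h2
    exact h2
  have hSeq : (S : Subgroup L) = Subgroup.zpowers t := by
    apply le_antisymm _ hS
    intro s hs'
    rcases hSall s hs' with e | e
    · rw [e]; exact Subgroup.one_mem _
    · rw [e]; exact Subgroup.mem_zpowers t
  have hcyc : IsCyclic (S : Subgroup L) := by
    rw [hSeq]; infer_instance
  obtain ⟨N, hN, hodd, k, hk⟩ := Helper11.NC_of_cyclic_sylow S hcyc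
  rcases hs.eq_bot_or_eq_top_of_normal N hN with e | e
  · -- `L` is a 2-group
    rw [e, Subgroup.index_bot] at hk
    have hLp : IsPGroup 2 L := IsPGroup.of_card hk
    have := hLp.center_nontrivial
    rcases hs.eq_bot_or_eq_top_of_normal (Subgroup.center L) inferInstance with e' | e'
    · exact (Subgroup.nontrivial_iff_ne_bot _).1 this e'
    · apply hna
      refine ⟨⟨fun a b => ?_⟩⟩
      have : b ∈ Subgroup.center L := e' ▸ Subgroup.mem_top b
      exact Subgroup.mem_center_iff.1 this a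
  · rw [e, Subgroup.card_top] at hodd
    have h2 : 2 ∣ Nat.card L := hord ▸ orderOf_dvd_natCard t
    exact (Nat.not_even_iff_odd.2 hodd) (even_iff_two_dvd.2 h2)

end Cfsg.Agent.Lib.Helper92
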