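import Mathlib
import Cfsg.Prelude
import Cfsg.Agent.Lib.Helper92.LargeStruct1

set_option autoImplicit false

namespace Cfsg.Agent.Lib.Helper92.LS

open Subgroup

variable {G : Type*} [Group G]

theorem comp_inf_centralizer (hT1 : centralizer (Cfsg.layer G : Set G) = ⊥) {L : Subgroup G}
    (hL : Cfsg.IsComponent L) : L ⊓ centralizer (L : Set G) = ⊥ := by
  have h1 : ⁅Cfsg.layer G, L ⊓ centralizer (L : Set G)⁆ = ⊥ := by
    rw [Helper27.comm_layer_eq_bot_iff]
    intro K hK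
    by_cases hKL : K = L
    · rw [hKL, commutator_comm, commutator_eq_bot_iff_le_centralizer]
      exact inf_le_right
    · rw [eq_bot_iff, ← Helper27.comp_comm_of_ne hK hL hKL]
      exact commutator_mono le_rfl inf_le_left
  rw [commutator_comm, commutator_eq_bot_iff_le_centralizer, hT1] at h1
  exact le_bot_iff.1 h1

theorem uniq {L : Subgroup G} (h0 : L ⊓ centralizer (L : Set G) = ⊥) {x x' w w' : G} (hx : x ∈ L)
    (hx' : x' ∈ L) (hw : w ∈ centralizer (L : Set G)) (hw' : w' ∈ centralizer (L : Set G))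
    (e : x * w = x' * w') : x = x' := by
  have h1 : x'⁻¹ * x = w' * w⁻¹ := by
    calc x'⁻¹ * x = x'⁻¹ * (x * w) * w⁻¹ := by group
      _ = w' * w⁻¹ := by rw [e]; group
  have h2 : x'⁻¹ * x ∈ L ⊓ centralizer (L : Set G) :=
    ⟨L.mul_mem (L.inv_mem hx') hx, by
      rw [h1]; exact (centralizer (L : Set G)).mul_mem hw' ((centralizer (L : Set G)).inv_mem hw)⟩
  rw [h0, mem_bot] at h2
  exact (inv_mul_eq_one.1 h2).symm

theorem exists_proj {L : Subgroup G} (hL : Cfsg.IsComponent L) {g : G} (hg : g ∈ Cfsg.layer G) :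
    ∃ x ∈ L, ∃ w ∈ centralizer (L : Set G), g = x * w := by
  have h1 : Cfsg.layer G ≤ L ⊔ centralizer (L : Set G) := by
    rw [Helper27.layer_le_iff]
    intro K hK
    by_cases hKL : K = L
    · rw [hKL]; exact le_sup_left
    · exact le_trans (commutator_eq_bot_iff_le_centralizer.1 (Helper27.comp_comm_of_ne hK hL hKL))
        le_sup_right
  obtain ⟨a, ha, b, hb, e⟩ := Helper28.exists_mul_of_mem_sup
    (le_trans le_normalizer (Helper28.normalizer_le_normalizer_centralizer L)) (h1 hg)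
  exact ⟨a, ha, b, hb, e.symm⟩

theorem comp_simple (hT1 : centralizer (Cfsg.layer G : Set G) = ⊥) {L : Subgroup G}
    (hL : Cfsg.IsComponent L) : IsSimpleGroup ↥L ∧ ¬ IsMulCommutative ↥L := by
  have h0 := comp_inf_centralizer hT1 hL
  have hc : center ↥L = ⊥ := by
    rw [eq_bot_iff]
    intro x hx
    have : (x : G) ∈ L ⊓ centralizer (L : Set G) := by
      refine ⟨x.2, ?_⟩
      change (x : G) ∈ centralizer (L : Set G)
      rw [mem_centralizer_iff]
      intro l hl
      exact congrArg Subtype.val (mem_center_iff.1 hx ⟨l, hl⟩)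
    rw [h0, mem_bot] at this
    exact mem_bot.2 (Subtype.ext this)
  have hnt := Helper28.IsQuasisimple.nontrivial hL.2
  constructor
  · refine { exists_pair_ne := hnt.exists_pair_ne, eq_bot_or_eq_top_of_normal := ?_ }
    intro N hN
    rcases Helper28.IsQuasisimple.normal_eq_top_or_le_center hL.2 N with h | h
    · exact Or.inr h
    · left
      rw [hc] at h
      exact le_bot_iff.1 h
  · intro hcm
    apply Helper28.IsQuasisimple.not_isSolvable hL.2
    have := Helper28.isNilpotent_of_isMulCommutative (H := ↥L)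
    infer_instance

/-- local configuration at a component -/
structure Cfg (Q : Subgroup G) (z : G) (L : Subgroup G) (z₁ c : G) : Prop where
  es : ESData Q z
  comp : Cfsg.IsComponent L
  h0 : L ⊓ centralizer (L : Set G) = ⊥
  z₁L : z₁ ∈ L
  cC : c ∈ centralizer (L : Set G)
  eq : z = z₁ * c

section
variable {Q L : Subgroup G} {z z₁ c : G}

theorem Cfg.comm_c (H : Cfg Q z L z₁ c) {x : G} (hx : x ∈ L) : Commute x c :=
  mem_centralizer_iff.1 H.cC x hx

theorem Cfg.z₁_ne [Finite G] (H : Cfg Q z L z₁ c) : z₁ ≠ 1 := by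
  intro e
  apply H.es.no_comp H.comp
  intro k hk
  rw [H.eq, e, one_mul]
  exact H.comm_c hk

theorem Cfg.commute_z (H : Cfg Q z L z₁ c) {x : G} (hx : x ∈ L) (hxz : Commute x z₁) :
    Commute x z := by
  rw [H.eq]
  exact hxz.mul_right (H.comm_c hx)

theorem Cfg.comm_z (H : Cfg Q z L z₁ c) : Commute z₁ z := H.commute_z H.z₁L (Commute.refl _)

theorem Cfg.sq (H : Cfg Q z L z₁ c) : z₁ * z₁ = 1 := by
  have hc : z₁ * c = c * z₁ := H.comm_c H.z₁L
  apply uniq H.h0 (L.mul_mem H.z₁L H.z₁L) L.one_mem (mul_mem H.cC H.cC) (one_mem _)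
  calc z₁ * z₁ * (c * c) = z₁ * (z₁ * c) * c := by group
    _ = z₁ * (c * z₁) * c := by rw [hc]
    _ = (z₁ * c) * (z₁ * c) := by group
    _ = 1 * 1 := by rw [← H.eq, H.es.zz, one_mul]

theorem Cfg.inv (H : Cfg Q z L z₁ c) : z₁⁻¹ = z₁ := inv_eq_of_mul_eq_one_left H.sq

theorem Cfg.conj (H : Cfg Q z L z₁ c) {q : G} (hq : q ∈ Q) :
    Cfg Q z (L.map (MulAut.conj q).toMonoidHom) (q * z₁ * q⁻¹) (q * c * q⁻¹) where
  es := H.es
  comp := Helper27.comp_conj H.comp q
  h0 := by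
    rw [← Helper28.map_conj_centralizer_subgroup,
      ← Subgroup.map_inf_eq _ _ _ (MulAut.conj q).injective, H.h0, Subgroup.map_bot]
  z₁L := conj_mem_map_conj H.z₁L
  cC := by
    rw [← Helper28.map_conj_centralizer_subgroup]
    exact conj_mem_map_conj H.cC
  eq := by
    have h1 : q * z * q⁻¹ = z := by
      rw [(H.es.zc q hq).eq]; group
    calc z = q * z * q⁻¹ := h1.symm
      _ = q * (z₁ * c) * q⁻¹ := by rw [← H.eq]
      _ = _ := by group

theorem Cfg.proj_eq (H : Cfg Q z L z₁ c) {x w : G} (hx : x ∈ L)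
    (hw : w ∈ centralizer (L : Set G)) (e : x * w = z) : x = z₁ :=
  uniq H.h0 hx H.z₁L hw H.cC (e.trans H.eq)

theorem Cfg.proj_one (H : Cfg Q z L z₁ c) {x w : G} (hx : x ∈ L)
    (hw : w ∈ centralizer (L : Set G)) (e : x * w = 1) : x = 1 :=
  uniq H.h0 hx L.one_mem hw (one_mem _) (e.trans (one_mul 1).symm)

theorem Cfg.eq_one_of_mem (H : Cfg Q z L z₁ c) {x : G} (hx : x ∈ L)
    (hw : x ∈ centralizer (L : Set G)) : x = 1 := by
  have : x ∈ L ⊓ centralizer (L : Set G) := ⟨hx, hw⟩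
  rwa [H.h0, mem_bot] at this

theorem Cfg.fix (H : Cfg Q z L z₁ c) {q : G} (hq : q ∈ Q)
    (hL : L.map (MulAut.conj q).toMonoidHom = L) : q * z₁ * q⁻¹ = z₁ := by
  have H' := H.conj hq
  rw [hL] at H'
  exact H.proj_eq H'.z₁L H'.cC H'.eq.symm

end

theorem comm_mem {Q : Subgroup G} {z : G} (h : ESData Q z) {u x : G} (hu : u ∈ Q)
    (hx : Commute x z) : u * x * u⁻¹ * x⁻¹ ∈ Q := by
  have h1 := h.norm x hx u⁻¹ (Q.inv_mem hu)
  have h2 := Q.mul_mem hu h1
  have e : u * (x * u⁻¹ * x⁻¹) = u * x * u⁻¹ * x⁻¹ := by group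
  rwa [e] at h2

end Cfsg.Agent.Lib.Helper92.LS
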