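import Mathlib
import Cfsg.Prelude
import Cfsg.Agent.Lib.Helper92.LargeStruct2

set_option autoImplicit false

namespace Cfsg.Agent.Lib.Helper92.LS

open Subgroup

variable {G : Type*} [Group G]

theorem le_centralizer_of_ne {K L : Subgroup G} (hK : Cfsg.IsComponent K) (hL : Cfsg.IsComponent L)
    (hne : K ≠ L) : K ≤ centralizer (L : Set G) :=
  commutator_eq_bot_iff_le_centralizer.1 (Helper27.comp_comm_of_ne hK hL hne)

/-- the key step: there are at most two components -/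
theorem core [Finite G] {Q L L' : Subgroup G} {z z₁ c z₂ c₂ : G} (H : Cfg Q z L z₁ c)
    (H' : Cfg Q z L' z₂ c₂) (hne : L' ≠ L) (hb : z₂ * z₁⁻¹ ∈ Q)
    (hy : ∀ x ∈ L, Commute x z₁ → ∃ x' ∈ L', x' * x⁻¹ ∈ Q)
    (hs : IsSimpleGroup ↥L) (hna : ¬ IsMulCommutative ↥L) : z₂ * z₁⁻¹ = z := by
  by_contra hbz
  have hL'L := le_centralizer_of_ne H'.comp H.comp hne
  have hLL' := le_centralizer_of_ne H.comp H'.comp hne.symm
  have h21 : Commute z₂ z₁ := (mem_centralizer_iff.1 (hL'L H'.z₁L) z₁ H.z₁L).symm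
  obtain ⟨b, hbdef⟩ : ∃ b, b = z₂ * z₁⁻¹ := ⟨_, rfl⟩
  rw [← hbdef] at hb hbz
  have hzinv : z⁻¹ = z := inv_eq_of_mul_eq_one_left H.es.zz
  have hb1 : b ≠ 1 := by
    intro e
    rw [hbdef] at e
    have e2 : z₂ = z₁ := mul_inv_eq_one.1 e
    exact H.z₁_ne (H.eq_one_of_mem H.z₁L (e2 ▸ hL'L H'.z₁L))
  have hbzc : Commute b z := H.es.zc b hb
  obtain ⟨e, hedef⟩ : ∃ e, e = b * z := ⟨_, rfl⟩
  have heQ : e ∈ Q := by rw [hedef]; exact Q.mul_mem hb H.es.zQ
  have he1 : e ≠ 1 := by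
    intro h
    rw [hedef] at h
    exact hbz ((eq_inv_of_mul_eq_one_left h).trans hzinv)
  have hez : e ≠ z := by
    intro h
    rw [hedef] at h
    exact hb1 (mul_eq_right.1 h)
  have heL : e ∈ centralizer (L : Set G) := by
    have : e = z₂ * c := by
      rw [hedef, hbdef, H.eq]; group
    rw [this]
    exact (centralizer (L : Set G)).mul_mem (hL'L H'.z₁L) H.cC
  have heL' : e ∈ centralizer (L' : Set G) := by
    have : e = z₁⁻¹ * c₂ := by
      rw [hedef, hbdef, H'.eq, h21.inv_right.eq]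
      calc z₁⁻¹ * z₂ * (z₂ * c₂) = z₁⁻¹ * (z₂ * z₂) * c₂ := by group
        _ = z₁⁻¹ * c₂ := by rw [H'.sq, mul_one]
    rw [this]
    exact (centralizer (L' : Set G)).mul_mem (hLL' (L.inv_mem H.z₁L)) H'.cC
  obtain ⟨q, hq, hqe⟩ : ∃ q ∈ Q, ¬ Commute q e := by
    by_contra hcon
    push Not at hcon
    rcases H.es.cent e hcon with h | h
    · exact he1 h
    · exact hez h
  have hqe' : q * e * q⁻¹ * e⁻¹ = z := by
    rcases H.es.comm q hq e heQ with h | h
    · exfalso
      apply hqe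
      have h2 : q * e * q⁻¹ = e := mul_inv_eq_one.1 h
      exact mul_inv_eq_iff_eq_mul.1 h2
    · exact h
  have hconj : q * e * q⁻¹ = b := by
    have h2 : q * e * q⁻¹ = z * e := mul_inv_eq_iff_eq_mul.1 hqe'
    rw [h2, hedef, hbzc.eq, ← mul_assoc, H.es.zz, one_mul]
  -- `b` centralizes the `q`-conjugates of `L` and `L'`
  have hbq : b ∈ centralizer ((L.map (MulAut.conj q).toMonoidHom : Subgroup G) : Set G) := by
    rw [← Helper28.map_conj_centralizer_subgroup, ← hconj]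
    exact conj_mem_map_conj heL
  have hbq' : b ∈ centralizer ((L'.map (MulAut.conj q).toMonoidHom : Subgroup G) : Set G) := by
    rw [← Helper28.map_conj_centralizer_subgroup, ← hconj]
    exact conj_mem_map_conj heL'
  have hbnot : b ∉ centralizer (L : Set G) := by
    intro h
    have h2 : z₁⁻¹ = z₂⁻¹ * b := by rw [hbdef]; group
    have h3 : z₁⁻¹ ∈ centralizer (L : Set G) := by
      rw [h2]
      exact (centralizer (L : Set G)).mul_mem ((centralizer (L : Set G)).inv_mem (hL'L H'.z₁L)) h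
    exact H.z₁_ne (inv_eq_one.1 (H.eq_one_of_mem (L.inv_mem H.z₁L) h3))
  have hn1 : L.map (MulAut.conj q).toMonoidHom ≠ L := fun h => hbnot (h ▸ hbq)
  have hn2 : L'.map (MulAut.conj q).toMonoidHom ≠ L := fun h => hbnot (h ▸ hbq')
  have hc1 := le_centralizer_of_ne (Helper27.comp_conj H.comp q) H.comp hn1
  have hc2 := le_centralizer_of_ne (Helper27.comp_conj H'.comp q) H.comp hn2
  have hX : ∀ x ∈ L, Commute x z₁ → x = 1 ∨ x = z₁ := by
    intro x hx hxz
    obtain ⟨x', hx', hyQ⟩ := hy x hx hxz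
    have hw : q * (x' * x⁻¹) * q⁻¹ ∈ centralizer (L : Set G) := by
      have : q * (x' * x⁻¹) * q⁻¹ = (q * x' * q⁻¹) * (q * x⁻¹ * q⁻¹) := by group
      rw [this]
      exact (centralizer (L : Set G)).mul_mem (hc2 (conj_mem_map_conj hx'))
        (hc1 (conj_mem_map_conj (L.inv_mem hx)))
    rcases H.es.comm q hq _ hyQ with h | h
    · left
      have h2 : q * (x' * x⁻¹) * q⁻¹ = x' * x⁻¹ := mul_inv_eq_one.1 h
      rw [h2] at hw
      have h3 : x⁻¹ = x'⁻¹ * (x' * x⁻¹) := by group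
      have h4 : x⁻¹ ∈ centralizer (L : Set G) := by
        rw [h3]
        exact (centralizer (L : Set G)).mul_mem ((centralizer (L : Set G)).inv_mem (hL'L hx')) hw
      exact inv_eq_one.1 (H.eq_one_of_mem (L.inv_mem hx) h4)
    · right
      have hcomm : Commute (q * (x' * x⁻¹) * q⁻¹) x := (mem_centralizer_iff.1 hw x hx).symm
      apply H.proj_eq hx (w := (q * (x' * x⁻¹) * q⁻¹) * x'⁻¹)
        ((centralizer (L : Set G)).mul_mem hw ((centralizer (L : Set G)).inv_mem (hL'L hx')))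
      rw [← h, ← mul_assoc, ← hcomm.eq]
      group
  refine false_of_selfcentralizing_involution hna (⟨z₁, H.z₁L⟩ : ↥L)
    (fun h => H.z₁_ne (congrArg Subtype.val h)) (Subtype.ext H.sq) ?_
  intro x hx
  rcases hX x x.2 (congrArg Subtype.val hx) with h | h
  · left; exact Subtype.ext h
  · right; exact Subtype.ext h

end Cfsg.Agent.Lib.Helper92.LS
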