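import Mathlib
import Cfsg.Prelude
import Cfsg.Agent.Lib.Helper92.LargeStruct3
import Cfsg.Agent.Lib.Helper28.Cores
import Cfsg.Agent.Lib.Helper52.Frat

set_option autoImplicit false

namespace Cfsg.Agent.Lib.Helper92.LS

open Subgroup

variable {G : Type*} [Group G]

/-- consequences when `u ∈ Q` moves the component `L` -/
theorem two [Finite G] {Q L : Subgroup G} {z z₁ c u : G} (H : Cfg Q z L z₁ c)
    (hsq : ∀ a ∈ Q, a * a = 1 ∨ a * a = z) (hs : IsSimpleGroup ↥L) (hna : ¬ IsMulCommutative ↥L)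
    (hu : u ∈ Q) (hne : L.map (MulAut.conj u).toMonoidHom ≠ L) :
    z = z₁ * (u * z₁ * u⁻¹) ∧
    (∀ K : Subgroup G, Cfsg.IsComponent K → K = L ∨ K = L.map (MulAut.conj u).toMonoidHom) ∧
    (∀ x ∈ L, Commute x z₁ → x * x = 1 ∨ x * x = z₁) ∧ (∀ x ∈ Q, x ∈ L → x = 1 ∨ x = z₁) := by
  have H' := H.conj hu
  have hL'L := le_centralizer_of_ne H'.comp H.comp hne
  have hcore := core H H' hne (comm_mem H.es hu H.comm_z)
    (fun x hx hxz => ⟨u * x * u⁻¹, conj_mem_map_conj hx, comm_mem H.es hu (H.commute_z hx hxz)⟩)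
    hs hna
  have h21 : Commute (u * z₁ * u⁻¹) z₁ := (mem_centralizer_iff.1 (hL'L H'.z₁L) z₁ H.z₁L).symm
  have hz : z = z₁ * (u * z₁ * u⁻¹) := by
    rw [← hcore, H.inv, h21.eq]
  refine ⟨hz, ?_, ?_, ?_⟩
  · intro K hK
    by_contra hcon
    push Not at hcon
    have h1 := le_centralizer_of_ne hK H.comp hcon.1
    have h2 := le_centralizer_of_ne hK H'.comp hcon.2
    apply H.es.no_comp hK
    intro k hk
    rw [hz]
    exact Commute.mul_right (mem_centralizer_iff.1 (h1 hk) z₁ H.z₁L).symm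
      (mem_centralizer_iff.1 (h2 hk) _ H'.z₁L).symm
  · intro x hx hxz
    have hyQ := comm_mem H.es hu (H.commute_z hx hxz)
    have hx' : u * x * u⁻¹ ∈ centralizer (L : Set G) := hL'L (conj_mem_map_conj hx)
    have hcm : Commute (u * x * u⁻¹) x⁻¹ := (mem_centralizer_iff.1 hx' _ (L.inv_mem hx)).symm
    have e : u * x * u⁻¹ * x⁻¹ * (u * x * u⁻¹ * x⁻¹)
        = (x * x)⁻¹ * ((u * x * u⁻¹) * (u * x * u⁻¹)) := by
      calc u * x * u⁻¹ * x⁻¹ * (u * x * u⁻¹ * x⁻¹)
          = (u * x * u⁻¹ * x⁻¹) * (u * x * u⁻¹ * x⁻¹) := rfl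
        _ = (x⁻¹ * (u * x * u⁻¹)) * (x⁻¹ * (u * x * u⁻¹)) := by rw [hcm.eq]
        _ = x⁻¹ * ((u * x * u⁻¹) * x⁻¹) * (u * x * u⁻¹) := by group
        _ = x⁻¹ * (x⁻¹ * (u * x * u⁻¹)) * (u * x * u⁻¹) := by rw [hcm.eq]
        _ = _ := by group
    have hw : (u * x * u⁻¹) * (u * x * u⁻¹) ∈ centralizer (L : Set G) :=
      (centralizer (L : Set G)).mul_mem hx' hx'
    have hxx : (x * x)⁻¹ ∈ L := L.inv_mem (L.mul_mem hx hx)
    rcases hsq _ hyQ with h | h
    · left
      rw [e] at h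
      exact inv_eq_one.1 (H.proj_one hxx hw h)
    · right
      rw [e] at h
      have := H.proj_eq hxx hw h
      rw [← H.inv, ← this, inv_inv]
  · intro x hxQ hx
    have hx' : u * x * u⁻¹ ∈ centralizer (L : Set G) := hL'L (conj_mem_map_conj hx)
    have hcm : Commute (u * x * u⁻¹) x⁻¹ := (mem_centralizer_iff.1 hx' _ (L.inv_mem hx)).symm
    rcases H.es.comm u hu x hxQ with h | h
    · left
      rw [hcm.eq] at h
      exact inv_eq_one.1 (H.proj_one (L.inv_mem hx) hx' h)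
    · right
      rw [hcm.eq] at h
      have := H.proj_eq (L.inv_mem hx) hx' h
      rw [← H.inv, ← this, inv_inv]

theorem Cfg.commute_z₁ {Q L : Subgroup G} {z z₁ c : G} (H : Cfg Q z L z₁ c) {x : G} (hx : x ∈ L)
    (hxz : Commute x z) : Commute x z₁ := by
  have : z₁ = z * c⁻¹ := by rw [H.eq]; group
  rw [this]
  exact hxz.mul_right (H.comm_c hx).inv_right

theorem isPGroup_X {L : Subgroup G} {z₁ : G} (hz₁ : z₁ * z₁ = 1)
    (hX : ∀ x ∈ L, Commute x z₁ → x * x = 1 ∨ x * x = z₁) :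
    IsPGroup 2 ((centralizer ({z₁} : Set G)).subgroupOf L) := by
  intro x
  refine ⟨2, ?_⟩
  apply Subtype.ext
  apply Subtype.ext
  have hx : Commute ((x : ↥L) : G) z₁ := (mem_centralizer_singleton_iff.1 x.2)
  have e : (((x ^ 2 ^ 2 : ↥((centralizer ({z₁} : Set G)).subgroupOf L)) : ↥L) : G)
      = (((x : ↥L) : G) * ((x : ↥L) : G)) * (((x : ↥L) : G) * ((x : ↥L) : G)) := by
    simp only [Subgroup.coe_pow]
    generalize ((x : ↥L) : G) = y
    change y ^ 4 = _
    rw [pow_succ, pow_succ, pow_succ, pow_one]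
    group
  rw [e]
  rcases hX _ (x : ↥L).2 hx with h | h
  · rw [h]; simp
  · rw [h, hz₁]; rfl

/-- `C_L(z₁)` is a Sylow 2-subgroup of `L` -/
theorem sylow_of_two [Finite G] {Q L : Subgroup G} {z z₁ c u : G} (H : Cfg Q z L z₁ c)
    (hu : u ∈ Q)
    (hcomps : ∀ K : Subgroup G, Cfsg.IsComponent K → K = L ∨ K = L.map (MulAut.conj u).toMonoidHom)
    (hX : ∀ x ∈ L, Commute x z₁ → x * x = 1 ∨ x * x = z₁) :
    ∃ R : Sylow 2 ↥L, (R : Subgroup ↥L) = (centralizer ({z₁} : Set G)).subgroupOf L := by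
  have : Fact (Nat.Prime 2) := ⟨Nat.prime_two⟩
  obtain ⟨R, hR⟩ := (isPGroup_X H.sq hX).exists_le_sylow
  refine ⟨R, ?_⟩
  obtain ⟨S₀, hS₀⟩ := H.es.two.exists_le_sylow
  have hS0ne : (S₀ : Subgroup G) ≠ ⊥ := by
    intro h
    have := hS₀ H.es.zQ
    rw [h, mem_bot] at this
    exact H.es.z1 this
  have hzS : z ∈ centralizer ((S₀ : Subgroup G) : Set G) := by
    have h1 := Helper12.inf_centralizer_ne_bot (S₀ : Subgroup G) S₀.2 (S₀ : Subgroup G) le_rfl
      le_normalizer hS0ne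
    obtain ⟨⟨x, hx⟩, hx1⟩ := Subgroup.ne_bot_iff_exists_ne_one.1 h1
    have hx1' : x ≠ 1 := fun e => hx1 (Subtype.ext e)
    rcases H.es.cent x (fun a ha => mem_centralizer_iff.1 hx.2 a (hS₀ ha)) with e | e
    · exact absurd e hx1'
    · rw [← e]; exact hx.2
  have hR' : IsPGroup 2 ((R : Subgroup ↥L).map L.subtype) := R.2.map _
  obtain ⟨g, hg⟩ := exists_conj_mem_sylow S₀ hR'
  obtain ⟨g', hg'⟩ : ∃ g' : G, ∀ t ∈ (R : Subgroup ↥L).map L.subtype,
      g' * t * g'⁻¹ ∈ L ∧ Commute (g' * t * g'⁻¹) z₁ := by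
    rcases hcomps _ (Helper27.comp_conj H.comp g) with h | h
    · refine ⟨g, fun t ht => ?_⟩
      have htL : t ∈ L := by
        obtain ⟨t', -, rfl⟩ := ht
        exact t'.2
      have h1 : g * t * g⁻¹ ∈ L := by
        rw [← h]; exact conj_mem_map_conj htL
      exact ⟨h1, H.commute_z₁ h1 (mem_centralizer_iff.1 hzS _ (hg t ht))⟩
    · refine ⟨u⁻¹ * g, fun t ht => ?_⟩
      have htL : t ∈ L := by
        obtain ⟨t', -, rfl⟩ := ht
        exact t'.2
      have h1 : g * t * g⁻¹ ∈ L.map (MulAut.conj u).toMonoidHom := by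
        rw [← h]; exact conj_mem_map_conj htL
      rw [mem_map_conj_iff] at h1
      have e : u⁻¹ * g * t * (u⁻¹ * g)⁻¹ = u⁻¹ * (g * t * g⁻¹) * u := by group
      rw [e]
      refine ⟨h1, H.commute_z₁ h1 ?_⟩
      have h2 : Commute (g * t * g⁻¹) z := mem_centralizer_iff.1 hzS _ (hg t ht)
      have h3 : Commute u z := H.es.zc u hu
      exact (h3.inv_left.mul_left h2).mul_left h3
  have hle : ((R : Subgroup ↥L).map L.subtype).map (MulAut.conj g').toMonoidHom ≤
      ((centralizer ({z₁} : Set G)).subgroupOf L).map L.subtype := by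
    rintro _ ⟨t, ht, rfl⟩
    obtain ⟨h1, h2⟩ := hg' t ht
    refine ⟨⟨g' * t * g'⁻¹, h1⟩, ?_, by simp⟩
    change (⟨g' * t * g'⁻¹, h1⟩ : ↥L) ∈ (centralizer ({z₁} : Set G)).subgroupOf L
    rw [mem_subgroupOf, mem_centralizer_singleton_iff]
    exact h2
  have hcard := Subgroup.card_le_of_le hle
  rw [Subgroup.card_map_of_injective (MulAut.conj g').injective,
    Subgroup.card_map_of_injective L.subtype_injective,
    Subgroup.card_map_of_injective L.subtype_injective] at hcard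
  exact (Subgroup.eq_of_le_of_card_ge hR hcard).symm

theorem comm_mem_zpowers {L : Subgroup G} {z₁ : G}
    (hX : ∀ x ∈ L, Commute x z₁ → x * x = 1 ∨ x * x = z₁) {x y : G} (hx : x ∈ L) (hy : y ∈ L)
    (hxz : Commute x z₁) (hyz : Commute y z₁) : x * y * x⁻¹ * y⁻¹ ∈ zpowers z₁ := by
  have hmem : ∀ w ∈ L, Commute w z₁ → w * w ∈ zpowers z₁ := by
    intro w hw hwz
    rcases hX w hw hwz with h | h
    · rw [h]; exact one_mem _
    · rw [h]; exact mem_zpowers z₁
  have e : x * y * x⁻¹ * y⁻¹ = ((x * y) * (x * y)) * (y⁻¹ * (x * x)⁻¹ * y) * (y * y)⁻¹ := by group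
  have h2 : y⁻¹ * (x * x)⁻¹ * y = (x * x)⁻¹ := by
    rcases hX x hx hxz with h | h
    · rw [h]; group
    · rw [h, mul_assoc, ← hyz.inv_right.eq]; group
  rw [e, h2]
  exact mul_mem (mul_mem (hmem _ (L.mul_mem hx hy) (hxz.mul_left hyz)) (inv_mem (hmem x hx hxz)))
    (inv_mem (hmem y hy hyz))

theorem frattini_le_of_two [Finite G] {L : Subgroup G} {z₁ : G}
    (hX : ∀ x ∈ L, Commute x z₁ → x * x = 1 ∨ x * x = z₁) (R : Subgroup ↥L)
    (hR : R = (centralizer ({z₁} : Set G)).subgroupOf L) :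
    (frattini ↥R).map ((L.subtype).comp R.subtype) ≤ zpowers z₁ := by
  have : Fact (Nat.Prime 2) := ⟨Nat.prime_two⟩
  rw [map_le_iff_le_comap]
  have hmem : ∀ x : ↥R, Commute (((x : ↥L) : G)) z₁ := by
    intro x
    have h1 : (x : ↥L) ∈ (centralizer ({z₁} : Set G)).subgroupOf L := hR ▸ x.2
    rw [mem_subgroupOf, mem_centralizer_singleton_iff] at h1
    exact h1
  apply Helper52.frattini_le_of (p := 2)
  · intro x y
    rw [mem_comap]
    have := comm_mem_zpowers hX (x : ↥L).2 (y : ↥L).2 (hmem x) (hmem y)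
    simpa using this
  · intro x
    rw [mem_comap]
    have e : ((L.subtype).comp R.subtype) (x ^ 2) = ((x : ↥L) : G) * ((x : ↥L) : G) := by
      simp [sq]
    rw [e]
    rcases hX _ (x : ↥L).2 (hmem x) with h | h
    · rw [h]; exact one_mem _
    · rw [h]; exact mem_zpowers z₁

theorem ne_pCore_of_two [Finite G] {Q L : Subgroup G} {z z₁ c : G} (H : Cfg Q z L z₁ c)
    (hs : IsSimpleGroup ↥L) (hna : ¬ IsMulCommutative ↥L)
    (hX : ∀ x ∈ L, Commute x z₁ → x * x = 1 ∨ x * x = z₁)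
    (hQL : ∀ x ∈ Q, x ∈ L → x = 1 ∨ x = z₁) :
    Q ≠ (Cfsg.pCore 2 ↥(centralizer ({z} : Set G))).map (centralizer ({z} : Set G)).subtype := by
  intro hEq
  have hp : IsPGroup 2 (L.subgroupOf (centralizer ({z} : Set G))) := by
    intro x
    refine ⟨2, ?_⟩
    apply Subtype.ext
    apply Subtype.ext
    have hxL : ((x : ↥(centralizer ({z} : Set G))) : G) ∈ L := x.2
    have hx : Commute ((x : ↥(centralizer ({z} : Set G))) : G) z₁ :=
      H.commute_z₁ hxL (mem_centralizer_singleton_iff.1 (x : ↥(centralizer ({z} : Set G))).2)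
    have e : (((x ^ 2 ^ 2 : ↥(L.subgroupOf (centralizer ({z} : Set G)))) :
        ↥(centralizer ({z} : Set G))) : G)
        = (((x : ↥(centralizer ({z} : Set G))) : G) * ((x : ↥(centralizer ({z} : Set G))) : G)) *
          (((x : ↥(centralizer ({z} : Set G))) : G) * ((x : ↥(centralizer ({z} : Set G))) : G)) := by
      simp only [Subgroup.coe_pow]
      generalize ((x : ↥(centralizer ({z} : Set G))) : G) = y
      change y ^ 4 = _
      rw [pow_succ, pow_succ, pow_succ, pow_one]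
      group
    rw [e]
    rcases hX _ hxL hx with h | h
    · rw [h]; simp
    · rw [h, H.sq]; rfl
  have hle := Helper28.subnormal_le_pCore (H.comp.1.subgroupOf (K := centralizer ({z} : Set G))) hp
  refine false_of_selfcentralizing_involution hna (⟨z₁, H.z₁L⟩ : ↥L)
    (fun h => H.z₁_ne (congrArg Subtype.val h)) (Subtype.ext H.sq) ?_
  intro x hx
  have hxz₁ : Commute (x : G) z₁ := congrArg Subtype.val hx
  have hxz : Commute (x : G) z := H.commute_z x.2 hxz₁
  have hxQ : (x : G) ∈ Q := by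
    rw [hEq]
    exact ⟨⟨x, mem_centralizer_singleton_iff.2 hxz⟩, hle (mem_subgroupOf.2 x.2), rfl⟩
  rcases hQL x hxQ x.2 with h | h
  · left; exact Subtype.ext h
  · right; exact Subtype.ext h

end Cfsg.Agent.Lib.Helper92.LS
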