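import Mathlib
import Cfsg.Agent.Lib.Helper92.TransvSL2
import Cfsg.Agent.Lib.Helper92.ESLarge
import Cfsg.Agent.Lib.Helper28.Cores

set_option autoImplicit false

namespace Cfsg.Agent.Lib.Helper92

/-- pull back elementwise extraspecial data along an injective homomorphism whose range
contains the subgroup -/
theorem ESData.comap_of_injective {G H : Type*} [Group G] [Group H] (Θ : G →* H)
    (hinj : Function.Injective Θ) {Q : Subgroup H} (hQ : Q ≤ Θ.range) {z : G}
    (h : ESData Q (Θ z)) : ESData (Q.comap Θ) z where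
  zQ := h.zQ
  z1 := fun e => h.z1 (by rw [e, map_one])
  zz := hinj (by rw [map_mul, h.zz, map_one])
  zc := fun a ha => hinj (by rw [map_mul, map_mul]; exact h.zc _ ha)
  comm := fun a ha b hb => by
    rcases h.comm _ ha _ hb with e | e
    · left; apply hinj; simpa using e
    · right; apply hinj; simpa using e
  cent := fun c hc => by
    have : ∀ a ∈ Q, Commute a (Θ c) := by
      intro a ha
      obtain ⟨a', rfl⟩ := hQ ha
      exact (hc a' ha).map Θ
    rcases h.cent _ this with e | e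
    · left; apply hinj; simpa using e
    · right; exact hinj e
  norm := fun c hc a ha => by
    have := h.norm _ (hc.map Θ) _ ha
    simpa [Subgroup.mem_comap] using this
  two := h.two.comap_of_injective Θ hinj

end Cfsg.Agent.Lib.Helper92

namespace Cfsg.Agent.Lib.Helper92.TSL

open Matrix

variable {n : ℕ}

theorem normal_two_subgroup_eq_bot' {m : ℕ} (hm : 1 ≤ m) (N : Subgroup (SLs m)) (hn : N.Normal)
    (hN : IsPGroup 2 N) : N = ⊥ := by
  rcases Nat.lt_or_ge m 2 with h | h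
  · have hm1 : m = 1 := by omega
    subst hm1
    rw [eq_bot_iff]
    intro g _
    rw [Subgroup.mem_bot]
    apply Subtype.ext
    have hd := g.2
    rw [det_fin_one] at hd
    ext i j
    have hi : i = 0 := Subsingleton.elim _ _
    have hj : j = 0 := Subsingleton.elim _ _
    rw [hi, hj, hd]
    rfl
  · exact normal_two_subgroup_eq_bot h N hn hN

/-- a conjugate of `z` in `Q₀ ∖ {z}`, by an element fixing `e0` -/
theorem exists_conj_fix {z : SLn n} (hn : 1 ≤ n)
    (hz : (z : Matrix (Fin (n + 2)) (Fin (n + 2)) (ZMod 2)) = MM f1 0) :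
    ∃ g : SLn n, (g : Matrix (Fin (n + 2)) (Fin (n + 2)) (ZMod 2)) *ᵥ e0 = e0 ∧
      g * z * g⁻¹ ∈ Q0 n ∧ g * z * g⁻¹ ≠ z := by
  have hk0 : Fin.last (n + 1) ≠ 0 := Fin.last_pos.ne'
  have hk1 : Fin.last (n + 1) ≠ 1 := by
    intro h
    have := congrArg Fin.val h
    simp at this
    omega
  set k := Fin.last (n + 1) with hk
  let g : SLn n := ⟨transvection 1 k 1, det_transvection_of_ne 1 k hk1.symm 1⟩
  have hg : (g : Matrix (Fin (n + 2)) (Fin (n + 2)) (ZMod 2)) = 1 + vecMulVec f1 (Pi.single k 1) := by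
    change transvection 1 k 1 = _
    rw [transvection, single_eq_single_vecMulVec_single]; rfl
  have d1 : (Pi.single k 1 : Fin (n + 2) → ZMod 2) ⬝ᵥ f1 = 0 := by
    rw [single_dotProduct, one_mul, f1]; exact Pi.single_eq_of_ne hk1 1
  have d2 : (Pi.single k 1 : Fin (n + 2) → ZMod 2) ⬝ᵥ e0 = 0 := by
    rw [single_dotProduct, one_mul, e0]; exact Pi.single_eq_of_ne hk0 1
  have d3 : (f1 : Fin (n + 2) → ZMod 2) ⬝ᵥ f1 = 1 := by rw [f1_dot, f1_one]
  have hself : vecMulVec (f1 : Fin (n + 2) → ZMod 2) (Pi.single k 1)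
      + vecMulVec (f1 : Fin (n + 2) → ZMod 2) (Pi.single k 1) = 0 := by
    ext i j
    exact CharTwo.add_self_eq_zero (vecMulVec (f1 : Fin (n + 2) → ZMod 2) (Pi.single k 1) i j)
  have hgg : (g : Matrix (Fin (n + 2)) (Fin (n + 2)) (ZMod 2)) * g = 1 := by
    rw [hg, add_mul, mul_add, mul_add, one_mul, one_mul, mul_one, vecMulVec_mul_vecMulVec, d1,
      zero_smul, vecMulVec_zero, add_zero, add_assoc, hself, add_zero]
  have hginv := coe_inv_eq hgg
  have hconj : ((g * z * g⁻¹ : SLn n) : Matrix (Fin (n + 2)) (Fin (n + 2)) (ZMod 2))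
      = MM (f1 + Pi.single k 1) 0 := by
    rw [coe_mul', coe_mul', hginv, hz, hg, MM, MM, zero_vecMulVec, add_zero, add_zero]
    simp only [add_mul, mul_add, one_mul, mul_one, vecMulVec_mul_vecMulVec, d1, d2, d3, zero_smul,
      one_smul, vecMulVec_zero, add_zero, vecMulVec_add]
    have : ∀ X Y Z : Matrix (Fin (n + 2)) (Fin (n + 2)) (ZMod 2), Y + Y = 0 →
        1 + Y + X + (Y + Z) = 1 + (X + Z) := by
      intro X Y Z h
      calc 1 + Y + X + (Y + Z) = 1 + X + Z + (Y + Y) := by abel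
        _ = 1 + (X + Z) := by rw [h, add_zero, add_assoc]
    exact this _ _ _ hself
  refine ⟨g, ?_, ⟨_, 0, ?_, rfl, hconj⟩, ?_⟩
  · rw [hg, add_mulVec, one_mulVec, vecMulVec_mulVec, d2]
    simp
  · simp [f1_zero, Pi.single_eq_of_ne hk0.symm]
  · intro h
    have h1 := congrArg (fun x : SLn n => (x : Matrix (Fin (n + 2)) (Fin (n + 2)) (ZMod 2)) 0 k) h
    simp only [hconj, hz, MM_apply, e0_zero, one_mul, Pi.add_apply, Pi.single_eq_same,
      Pi.zero_apply, zero_mul, add_zero] at h1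
    have h2 : (f1 : Fin (n + 2) → ZMod 2) k = 0 := by rw [f1]; exact Pi.single_eq_of_ne hk1 1
    rw [h2] at h1
    simp at h1

/-- transfer of the structure of the centralizer of a transvection to a group embedded in
`SL_{n+2}(2)` as a subgroup containing the stabilizer of `e0` -/
theorem transfer {G : Type*} [Group G] [Finite G] (hn : 1 ≤ n) (Θ : G →* SLn n)
    (hinj : Function.Injective Θ)
    (hrange : ∀ c : SLn n, (c : Matrix (Fin (n + 2)) (Fin (n + 2)) (ZMod 2)) *ᵥ e0 = e0 →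
      c ∈ Θ.range) (z : G)
    (hz : (Θ z : Matrix (Fin (n + 2)) (Fin (n + 2)) (ZMod 2)) = MM f1 0)
    (Q : Subgroup G)
    (hQ : Q = (Cfsg.pCore 2 ↥(Subgroup.centralizer ({z} : Set G))).map
      (Subgroup.centralizer ({z} : Set G)).subtype) :
    Q = (Q0 n).comap Θ ∧ Nat.card ↥Q = 2 ^ (2 * n + 1) ∧ Cfsg.IsLargeExtraspecial Q ∧
    ∃ K : Subgroup G, K ≤ Subgroup.centralizer ({z} : Set G) ∧ Q ⊓ K = ⊥ ∧
      Q ⊔ K = Subgroup.centralizer ({z} : Set G) ∧ Nonempty (↥K ≃* SLs n) := by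
  have : Fact (Nat.Prime 2) := ⟨Nat.prime_two⟩
  have hES0 := esdata hz
  have hCr : ∀ c : SLn n, Commute c (Θ z) → c ∈ Θ.range := fun c hc =>
    hrange c (fix_of_commute hz hc).1
  have hQr : Q0 n ≤ Θ.range := fun c hc => hCr c (hES0.zc c hc)
  have hES := ESData.comap_of_injective Θ hinj hQr hES0
  have hC : ∀ c : G, c ∈ Subgroup.centralizer ({z} : Set G) ↔ Commute c z := by
    intro c
    rw [Subgroup.mem_centralizer_singleton_iff]
    exact ⟨fun h => h, fun h => h⟩
  have hC' : ∀ c : G, Commute (Θ c) (Θ z) → c ∈ Subgroup.centralizer ({z} : Set G) := by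
    intro c h
    rw [hC]
    apply hinj
    rw [map_mul, map_mul]
    exact h
  set Q₁ := (Q0 n).comap Θ with hQ₁
  have hQ1C : Q₁ ≤ Subgroup.centralizer ({z} : Set G) := fun g hg => (hC g).2 (hES.zc g hg)
  have hnorm : (Q₁.subgroupOf (Subgroup.centralizer ({z} : Set G))).Normal := by
    constructor
    intro a ha c
    rw [Subgroup.mem_subgroupOf] at ha ⊢
    exact hES.norm c ((hC _).1 c.2) a ha
  have hle : Q₁.subgroupOf (Subgroup.centralizer ({z} : Set G)) ≤
      Cfsg.pCore 2 ↥(Subgroup.centralizer ({z} : Set G)) :=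
    Helper28.le_pCore hnorm hES.two.comap_subtype
  have hQ1Q : Q₁ ≤ Q := by
    intro g hg
    rw [hQ]
    exact ⟨⟨g, hQ1C hg⟩, hle (Subgroup.mem_subgroupOf.2 hg), rfl⟩
  have hQp : IsPGroup 2 Q := by
    rw [hQ]
    exact (Helper28.pCore_isPGroup 2).map _
  have hQn : ∀ c ∈ Subgroup.centralizer ({z} : Set G), ∀ x ∈ Q, c * x * c⁻¹ ∈ Q := by
    intro c hc x hx
    rw [hQ] at hx ⊢
    obtain ⟨x', hx', rfl⟩ := hx
    exact ⟨⟨c, hc⟩ * x' * ⟨c, hc⟩⁻¹, (inferInstance : (Cfsg.pCore 2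
          ↥(Subgroup.centralizer ({z} : Set G))).Normal).conj_mem _ hx' _, rfl⟩
  have hQC : Q ≤ Subgroup.centralizer ({z} : Set G) := by
    rw [hQ]
    rintro _ ⟨x, -, rfl⟩
    exact x.2
  have hKr : (kap (n := n)).range ≤ Θ.range := by
    rintro _ ⟨A, rfl⟩
    exact hCr _ (kap_commute hz A)
  have hQeq : Q = Q₁ := by
    apply le_antisymm _ hQ1Q
    intro r hr
    obtain ⟨A, hA⟩ := exists_decomp hz (((hC r).1 (hQC hr)).map Θ)
    let N : Subgroup (SLs n) := (Q.map Θ).comap kap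
    have hNn : N.Normal := by
      constructor
      rintro B ⟨x, hx, hxB⟩ D
      obtain ⟨d, hd⟩ := hKr ⟨D, rfl⟩
      have hdC : d ∈ Subgroup.centralizer ({z} : Set G) := by
        apply hC'
        rw [hd]
        exact kap_commute hz D
      refine ⟨d * x * d⁻¹, hQn d hdC x hx, ?_⟩
      rw [map_mul, map_mul, map_inv, hd, hxB, map_mul, map_mul, map_inv]
    have hNp : IsPGroup 2 N := (hQp.map Θ).comap_of_injective kap kap_injective
    have hN := normal_two_subgroup_eq_bot' hn N hNn hNp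
    have hAN : A ∈ N := by
      obtain ⟨q, hq⟩ := hQr hA
      have hqQ : q ∈ Q₁ := by
        change Θ q ∈ Q0 n
        rw [hq]; exact hA
      refine ⟨q⁻¹ * r, Q.mul_mem (Q.inv_mem (hQ1Q hqQ)) hr, ?_⟩
      rw [map_mul, map_inv, hq]
      group
    rw [hN, Subgroup.mem_bot] at hAN
    rw [hAN, map_one, inv_one, mul_one] at hA
    exact hA
  obtain ⟨g₀, hg0, hg1, hg2⟩ := exists_conj_fix hn hz
  obtain ⟨g, rfl⟩ := hrange g₀ hg0
  have hL : Cfsg.IsLargeExtraspecial Q₁ := by
    apply hES.isLargeExtraspecial_of_conj g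
    · change Θ (g * z * g⁻¹) ∈ Q0 n
      rw [map_mul, map_mul, map_inv]; exact hg1
    · intro h
      apply hg2
      rw [← map_inv, ← map_mul, ← map_mul, h]
  have hcard : Nat.card ↥Q₁ = 2 ^ (2 * n + 1) := by
    rw [← card_Q0 (n := n)]
    have e := Subgroup.equivMapOfInjective Q₁ Θ hinj
    rw [Nat.card_congr e.toEquiv, hQ₁, Subgroup.map_comap_eq_self hQr]
  rw [hQeq]
  refine ⟨rfl, hcard, hL, (kap (n := n)).range.comap Θ, ?_, ?_, ?_, ?_⟩
  · rintro k ⟨A, hA⟩
    apply hC'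
    rw [← hA]
    exact kap_commute hz A
  · rw [eq_bot_iff]
    rintro x ⟨h1, h2⟩
    have : Θ x ∈ Q0 n ⊓ (kap (n := n)).range := ⟨h1, h2⟩
    rw [Q0_inf_range, Subgroup.mem_bot] at this
    rw [Subgroup.mem_bot]
    apply hinj
    rw [this, map_one]
  · apply le_antisymm
    · apply sup_le hQ1C
      rintro k ⟨A, hA⟩
      apply hC'
      rw [← hA]
      exact kap_commute hz A
    · intro c hc
      obtain ⟨A, hA⟩ := exists_decomp hz (((hC c).1 hc).map Θ)
      obtain ⟨k, hk⟩ := hKr ⟨A, rfl⟩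
      have e : c = (c * k⁻¹) * k := by group
      rw [e]
      apply Subgroup.mul_mem_sup
      · change Θ (c * k⁻¹) ∈ Q0 n
        rw [map_mul, map_inv, hk]; exact hA
      · exact ⟨A, hk.symm⟩
  · have e := Subgroup.equivMapOfInjective ((kap (n := n)).range.comap Θ) Θ hinj
    have e2 : ((kap (n := n)).range.comap Θ).map Θ = (kap (n := n)).range :=
      Subgroup.map_comap_eq_self hKr
    exact ⟨(e.trans (MulEquiv.subgroupCongr e2)).trans (MonoidHom.ofInjective kap_injective).symm⟩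

/-- over the field with two elements `SL = GL` -/
theorem nonempty_SLs_equiv_GL (m : ℕ) :
    Nonempty (SLs m ≃* Matrix.GeneralLinearGroup (Fin m) (ZMod 2)) := by
  refine ⟨MulEquiv.ofBijective (Matrix.SpecialLinearGroup.toGL) ⟨?_, ?_⟩⟩
  · intro A B h
    apply Subtype.ext
    have := congrArg (fun x : Matrix.GeneralLinearGroup (Fin m) (ZMod 2) =>
      (x : Matrix (Fin m) (Fin m) (ZMod 2))) h
    exact this
  · intro g
    have hd : (g : Matrix (Fin m) (Fin m) (ZMod 2)).det = 1 := by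
      apply det_eq_one_of_mul (M' := ((g⁻¹ : Matrix.GeneralLinearGroup (Fin m) (ZMod 2)) :
        Matrix (Fin m) (Fin m) (ZMod 2)))
      exact Units.mul_inv g
    refine ⟨⟨g, hd⟩, ?_⟩
    apply Units.ext
    rfl

end Cfsg.Agent.Lib.Helper92.TSL
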